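import Mathlib

/-!
Groups of odd unitary type: arithmetic, and the lemma of tangents.
-/

set_option autoImplicit false
set_option maxHeartbeats 400000

namespace Cfsg.Agent.ON

theorem n1 {p k r : ℕ} (hp : 2 ≤ p) (h : p ^ k + 1 ∣ p ^ r - 1) (r1 : 1 ≤ r) (r2 : r ≤ 2 * k) :
    r = 2 * k := by
  have h1 : 1 < p ^ r := Nat.one_lt_pow (by omega) hp
  by_contra e
  rcases le_or_gt r k with e1 | e1
  · have := Nat.le_of_dvd (by omega) h
    have := Nat.pow_le_pow_right (show 0 < p by omega) e1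
    omega
  · obtain ⟨t, rfl⟩ := Nat.exists_eq_add_of_le e1.le
    have h2 : p ^ k + 1 ∣ p ^ t + 1 := by
      have := Nat.dvd_sub (Dvd.intro_left (p ^ t) rfl : p ^ k + 1 ∣ _) h
      rwa [show p ^ t * (p ^ k + 1) - (p ^ (k + t) - 1) = p ^ t + 1 by
        rw [pow_add] at h1 ⊢; rw [mul_add, mul_comm (p ^ t)]; omega] at this
    have := Nat.le_of_dvd (by omega) h2
    have := Nat.pow_lt_pow_right (show 1 < p by omega) (show t < k by omega)
    omega

theorem n2 {p k n : ℕ} (hp : 2 ≤ p) (h : p ^ k + 1 ∣ p ^ (3 * n) + 1) (h1 : n < k) (h2 : k ≤ 3 * n) :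
    k = 3 * n := by
  obtain ⟨r, hr⟩ := Nat.exists_eq_add_of_le h2
  by_contra e
  have h3 : p ^ k + 1 ∣ p ^ r - 1 := by
    have := Nat.dvd_sub (Dvd.intro_left (p ^ r) rfl : p ^ k + 1 ∣ _) h
    rwa [hr, pow_add, mul_add, mul_comm (p ^ r), mul_one, Nat.add_sub_add_left] at this
  have := n1 hp h3 (by omega) (by omega)
  omega

theorem n3 {p k n m : ℕ} (hp : 3 ≤ p) (hn : n ≠ 0)
    (h : m * (p ^ k * (p ^ k + 1)) + p ^ k = (p ^ n) ^ 3) (m0 : m ≠ 0)
    (h1 : p ^ k ≠ 1 → m ≤ 2 * (p ^ k - 1)) (h2 : m ≤ (p ^ n) ^ 2 - 1) : k = n ∧ m + 1 = p ^ n := by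
  have q3 : 3 ≤ p ^ n := hp.trans (Nat.le_self_pow hn p)
  have c0 : 0 < p ^ k := by positivity
  have c1 : p ^ k ≠ 1 := fun e => by
    rw [e] at h
    have : m + 1 ≤ (p ^ n) ^ 2 := by have : 0 < (p ^ n) ^ 2 := by positivity
                                     omega
    nlinarith
  have h3 : n ≤ k := by
    by_contra! e
    have h4 : p * p ^ k ≤ p ^ n := pow_succ' p k ▸ Nat.pow_le_pow_right (by omega) e
    have h5 : m ≤ 2 * p ^ k := by have := h1 c1; omega
    have h6 : 3 * p ^ k ≤ p ^ n := (Nat.mul_le_mul_right _ hp).trans h4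
    have h7 := Nat.pow_le_pow_left h6 3
    have h8 := Nat.mul_le_mul_right (p ^ k * (p ^ k + 1)) h5
    generalize p ^ k = c at *
    nlinarith [Nat.mul_le_mul c0 c0, Nat.mul_le_mul (Nat.mul_le_mul c0 c0) c0,
      Nat.mul_le_mul_left (c * c) c0, Nat.mul_le_mul_left c c0]
  have h4 : k < 3 * n := by
    rw [← Nat.pow_lt_pow_iff_right (show 1 < p by omega), mul_comm, pow_mul, ← h]
    have : 0 < m * (p ^ k * (p ^ k + 1)) := by positivity
    omega
  obtain ⟨r, hr⟩ := Nat.exists_eq_add_of_le h4.le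
  have h5 : m * (p ^ k + 1) + 1 = p ^ r := by
    apply Nat.eq_of_mul_eq_mul_left c0
    rw [← pow_add, ← hr, mul_comm 3, pow_mul, ← h]; ring
  have h6 := n1 (p := p) (k := k) (r := r) (by omega) ⟨m, by rw [← h5, mul_comm]; simp⟩ (by omega)
    (by omega)
  obtain rfl : k = n := by omega
  refine ⟨rfl, ?_⟩
  apply Nat.eq_of_mul_eq_mul_right (show 0 < p ^ k + 1 by omega)
  rw [h6, mul_comm 2, pow_mul] at h5
  nlinarith

theorem n4 {p k n : ℕ} (hp : 3 ≤ p) (h : p ^ n + 1 ≤ 2 * p ^ k) : n ≤ k := by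
  by_contra! e
  have h4 : p * p ^ k ≤ p ^ n := pow_succ' p k ▸ Nat.pow_le_pow_right (by omega) e
  have := Nat.mul_le_mul_right (p ^ k) hp
  omega

theorem n5 {p k n d e : ℕ} (d0 : 0 < d) (hd : d < p) (he : d * e + 1 = (p ^ n) ^ 2)
    (h : e + 1 ≤ p ^ k) : 2 * n ≤ k := by
  by_contra! h1
  have h4 : p * p ^ k ≤ p ^ (2 * n) := pow_succ' p k ▸ Nat.pow_le_pow_right (by omega) h1
  rw [mul_comm 2, pow_mul, ← he] at h4
  have := Nat.mul_le_mul hd h
  nlinarith

theorem mem_of_pow {H : Type*} [Group H] [Finite H] [IsCyclic H] (K : Subgroup H) {h : H}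
    (e : h ^ Nat.card K = 1) : h ∈ K := by
  classical
  haveI := Fintype.ofFinite H
  have h1 := IsCyclic.card_pow_eq_one_le (α := H) (Nat.card_pos (α := K))
  have h2 : (Finset.univ.filter fun a => a ∈ K) = Finset.univ.filter fun a : H => a ^ Nat.card K = 1 :=
    Finset.eq_of_subset_of_card_le (fun a ha => by
      simp only [Finset.mem_filter, Finset.mem_univ, true_and] at ha ⊢
      exact congrArg Subtype.val (pow_card_eq_one' (x := (⟨a, ha⟩ : K)))) (by
      rwa [← Fintype.card_subtype fun a => a ∈ K, ← Nat.card_eq_fintype_card])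
  exact (Finset.mem_filter.1 ((Finset.ext_iff.1 h2 h).2
    (Finset.mem_filter.2 ⟨Finset.mem_univ _, e⟩))).2

section Segre
variable {E : Type*} [Field E] [Fintype E] [DecidableEq E] {σ : E →+* E} (σσ : ∀ x, σ (σ x) = x)

theorem prod_fix (h2 : (2 : E) ≠ 0) :
    ∏ x ∈ Finset.univ.filter (fun x => σ x = x ∧ x ≠ 0), x = -1 := by
  rw [← Finset.mul_prod_erase _ _ (a := -1) (by simp), Finset.prod_involution (fun x _ => x⁻¹)
    (fun x hx => mul_inv_cancel₀ (by simp_all)) (fun x hx h1 e => ?_) (fun x hx => ?_)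
    (fun x _ => inv_inv x), mul_one]
  · simp only [Finset.mem_erase, Finset.mem_filter] at hx
    have := mul_inv_cancel₀ hx.2.2.2
    rw [e, mul_self_eq_one_iff] at this
    tauto
  · simp only [Finset.mem_erase, Finset.mem_filter, Finset.mem_univ, true_and] at hx ⊢
    exact ⟨fun e => hx.1 (by rw [← inv_inv x, e]; simp), by rw [map_inv₀, hx.2.1], inv_ne_zero hx.2.2⟩

/-- the alternating form -/
def al (σ : E →+* E) (u w : E) : E := u * σ w - σ u * w

include σσ in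
theorem vertex (h2 : (2 : E) ≠ 0) {S : Finset E} {u w τ : E} (huw : al σ u w ≠ 0)
    (h1 : ∀ x ∈ insert τ S, al σ x u ≠ 0 ∧ al σ x w ≠ 0)
    (h3 : ∀ x ∈ insert τ S, ∀ y ∈ insert τ S, al σ x y = 0 → x = y) (hτ : τ ∉ S)
    (hc : (Finset.univ.filter fun x => σ x = x).card ≤ S.card + 2) :
    al σ τ w / al σ τ u * ∏ x ∈ S, al σ x w / al σ x u = -1 := by
  rw [← Finset.prod_insert (f := fun x => al σ x w / al σ x u) hτ, ← prod_fix (σ := σ) h2]
  have inj : Set.InjOn (fun x => al σ x w / al σ x u) (insert τ S : Finset E) := fun x hx y hy e => by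
    refine h3 x hx y hy (mul_right_cancel₀ huw ?_)
    have := (div_eq_div_iff (h1 x hx).1 (h1 y hy).1).1 e
    simp only [al] at this ⊢
    linear_combination -this
  rw [← Finset.prod_image (g := fun x => al σ x w / al σ x u) (f := fun x => x) inj]
  congr 1
  refine Finset.eq_of_subset_of_card_le (fun z hz => ?_) ?_
  · obtain ⟨x, hx, rfl⟩ := Finset.mem_image.1 hz
    refine Finset.mem_filter.2 ⟨Finset.mem_univ _, ?_, div_ne_zero (h1 x hx).2 (h1 x hx).1⟩
    conv_rhs => rw [← neg_div_neg_eq]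
    simp [al, σσ]
  · rw [Finset.card_image_of_injOn inj, Finset.card_insert_of_notMem hτ, Finset.filter_and,
      Finset.filter_ne', Finset.inter_erase, Finset.inter_univ, Finset.card_erase_of_mem (by simp)]
    omega

include σσ in
theorem segre (h2 : (2 : E) ≠ 0) {ε : E} (e0 : ε ≠ 0) (e1 : σ ε = -ε) {O : Finset E}
    (h1 : ∀ γ ∈ O, ∀ δ ∈ O, ∀ δ' ∈ O, δ ≠ γ → δ' ≠ γ → al σ (δ - γ) (δ' - γ) = 0 → δ = δ')
    (h3 : ∀ γ ∈ O, ∀ δ ∈ O, δ ≠ γ → (δ - γ) * σ γ + σ (δ - γ) * γ ≠ 0)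
    (hc : (Finset.univ.filter fun x => σ x = x).card + 1 ≤ O.card) {γ δ : E} (g0 : γ ≠ 0)
    (hγ : γ ∈ O) (hγ' : -γ ∈ O) (hδ : δ ∈ O) : δ * σ γ + σ δ * γ = 0 ∨ δ * σ δ = γ * σ γ := by
  by_cases e2 : δ = γ
  · simp [e2]
  by_cases e3 : δ = -γ
  · simp [e3]
  have e4 : -γ ≠ γ := fun e => g0 (mul_left_cancel₀ h2 (by linear_combination -e))
  have key : ∀ P ∈ O, ∀ Q ∈ O, ∀ R ∈ O, Q ≠ P → R ≠ P → Q ≠ R →
      al σ (ε * P) (P - R) / al σ (ε * P) (Q - P) *
        ∏ x ∈ O \ {P, Q, R}, al σ (x - P) (P - R) / al σ (x - P) (Q - P) = -1 := by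
    intro P hP Q hQ R hR n1 n2 n3
    have t : ∀ x ∈ O, x ≠ P → al σ (ε * P) (x - P) ≠ 0 := fun x hx n e =>
      mul_ne_zero e0 (h3 P hP x hx n) (by
        simp only [al, map_mul, e1] at e; linear_combination e)
    have ng : ∀ x y, al σ x (P - y) = -al σ x (y - P) := fun x y => by simp only [al, map_sub]; ring
    have sw : ∀ x y, al σ x y = -al σ y x := fun x y => by simp only [al]; ring
    have hτ : ε * P ∉ (O \ {P, Q, R}).image (· - P) := fun e => by
      obtain ⟨x, hx, e⟩ := Finset.mem_image.1 e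
      simp only [Finset.mem_sdiff, Finset.mem_insert, Finset.mem_singleton, not_or] at hx
      exact t x hx.1 hx.2.1 (by rw [e, al, mul_comm, sub_self])
    rw [← vertex σσ h2 (u := Q - P) (w := P - R) _ _ _ hτ, Finset.prod_image (by simp)]
    · rw [Finset.card_image_of_injective _ sub_left_injective]
      have := Finset.le_card_sdiff {P, Q, R} O
      have := Finset.card_le_three (a := P) (b := Q) (c := R)
      omega
    · rw [ng, neg_ne_zero]
      exact fun e => n3 (h1 P hP Q hQ R hR n1 n2 e)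
    · intro x hx
      rw [ng, neg_ne_zero]
      rcases Finset.mem_insert.1 hx with rfl | hx
      · exact ⟨t Q hQ n1, t R hR n2⟩
      · obtain ⟨y, hy, rfl⟩ := Finset.mem_image.1 hx
        simp only [Finset.mem_sdiff, Finset.mem_insert, Finset.mem_singleton, not_or] at hy
        exact ⟨fun e => hy.2.2.1 (h1 P hP y hy.1 Q hQ hy.2.1 n1 e),
          fun e => hy.2.2.2 (h1 P hP y hy.1 R hR hy.2.1 n2 e)⟩
    · simp only [Finset.mem_insert, Finset.mem_image, Finset.mem_sdiff, Finset.mem_singleton, not_or]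
      rintro _ (rfl | ⟨x, hx, rfl⟩) _ (rfl | ⟨y, hy, rfl⟩) e
      · rfl
      · exact absurd e (t y hy.1 hy.2.1)
      · exact absurd (by rw [sw, e, neg_zero]) (t x hx.1 hx.2.1)
      · rw [h1 P hP x hx.1 y hy.1 hx.2.1 hy.2.1 e]
  have k1 := key γ hγ (-γ) hγ' δ hδ e4 e2 (Ne.symm e3)
  have k2 := key (-γ) hγ' δ hδ γ hγ e3 e4.symm e2
  have k3 := key δ hδ γ hγ (-γ) hγ' (Ne.symm e2) (Ne.symm e3) e4.symm
  have p2 : ({-γ, δ, γ} : Finset E) = {γ, -γ, δ} := by
    ext; simp only [Finset.mem_insert, Finset.mem_singleton]; tauto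
  have p3 : ({δ, γ, -γ} : Finset E) = {γ, -γ, δ} := by
    ext; simp only [Finset.mem_insert, Finset.mem_singleton]; tauto
  rw [p2] at k2
  rw [p3] at k3
  have k4 : (∏ x ∈ O \ {γ, -γ, δ}, al σ (x - γ) (γ - δ) / al σ (x - γ) (-γ - γ)) *
      (∏ x ∈ O \ {γ, -γ, δ}, al σ (x - -γ) (-γ - γ) / al σ (x - -γ) (δ - -γ)) *
      (∏ x ∈ O \ {γ, -γ, δ}, al σ (x - δ) (δ - -γ) / al σ (x - δ) (γ - δ)) = 1 := by
    rw [← Finset.prod_mul_distrib, ← Finset.prod_mul_distrib]
    refine Finset.prod_eq_one fun x hx => ?_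
    simp only [Finset.mem_sdiff, Finset.mem_insert, Finset.mem_singleton, not_or] at hx
    have a1 := mt (h1 γ hγ x hx.1 _ hγ' hx.2.1 e4) hx.2.2.1
    have a2 := mt (h1 _ hγ' x hx.1 _ hδ hx.2.2.1 e3) hx.2.2.2
    have a3 := mt (h1 _ hδ x hx.1 _ hγ hx.2.2.2 (Ne.symm e2)) hx.2.1
    rw [div_mul_div_comm, div_mul_div_comm, div_eq_one_iff_eq (mul_ne_zero (mul_ne_zero a1 a2) a3)]
    simp only [al, map_sub, map_neg]; ring
  have k5 : al σ (ε * γ) (γ - δ) / al σ (ε * γ) (-γ - γ) *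
      (al σ (ε * -γ) (-γ - γ) / al σ (ε * -γ) (δ - -γ)) *
      (al σ (ε * δ) (δ - -γ) / al σ (ε * δ) (γ - δ)) = -1 := by
    have gen : ∀ a b c x y z : E, a * x = -1 → b * y = -1 → c * z = -1 → x * y * z = 1 →
        a * b * c = -1 := fun a b c x y z h1 h2 h3 h4 => by
      linear_combination (-a * b * c) * h4 + (b * y * c * z) * h1 - (c * z) * h2 + h3
    exact gen _ _ _ _ _ _ k1 k2 k3 k4
  have t : ∀ P ∈ O, ∀ x ∈ O, x ≠ P → al σ (ε * P) (x - P) ≠ 0 := fun P hP x hx n e =>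
    mul_ne_zero e0 (h3 P hP x hx n) (by simp only [al, map_mul, e1] at e; linear_combination e)
  rw [div_mul_div_comm, div_mul_div_comm, div_eq_iff (mul_ne_zero (mul_ne_zero (t γ hγ _ hγ' e4)
    (t _ hγ' _ hδ e3)) (t _ hδ _ hγ (Ne.symm e2)))] at k5
  simp only [al, map_sub, map_neg, map_mul, e1] at k5
  have s0 : σ γ ≠ 0 := (map_ne_zero σ).2 g0
  rw [← sub_eq_zero (a := δ * σ δ), ← mul_eq_zero]
  apply mul_left_cancel₀ (show 2 ^ 4 * ε ^ 3 * γ * σ γ ≠ 0 by simp [*])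
  linear_combination -k5

end Segre

end Cfsg.Agent.ON
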