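import Cfsg.Agent.ON.A
import Cfsg.Agent.H4.Zass
import Cfsg.Agent.Rk1.FcA

/-!
Groups of odd unitary type: the set-up, the structure equation and the involution count.
-/

set_option autoImplicit false
set_option maxHeartbeats 400000
set_option linter.unusedSectionVars false

namespace Cfsg.Agent.ON

open MulAction Subgroup Cfsg.Agent.H4.Basic Cfsg.Agent.H4.Zass Cfsg.Agent.Rk1.Fc

variable {G Ω : Type*} [Group G] [MulAction G Ω]

/-- The set-up. -/
structure Su (a b : Ω) (U H : Subgroup G) (p n d m : ℕ) (j s : G) : Prop where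
  ker : IsKer a U
  ab : a ≠ b
  two : IsMultiplyPretransitive G Ω 2
  memH : ∀ {g}, g ∈ H ↔ g • a = a ∧ g • b = b
  cyc : IsCyclic H
  hp : p.Prime
  p3 : 3 ≤ p
  n0 : n ≠ 0
  cU : Nat.card U = (p ^ n) ^ 3
  dm : p ^ n + 1 = d * m
  hd : d = 1 ∨ d = 3
  cH : Nat.card H = (p ^ n - 1) * m
  jH : j ∈ H
  j2 : j * j = 1
  j1 : j ≠ 1
  cj : IsConj j s
  sa : s • a = b
  sb : s • b = a

/-- centraliser in `U` -/
abbrev Zc (U : Subgroup G) (h : G) : Subgroup G := U ⊓ centralizer {h}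

theorem mem_Zc {U : Subgroup G} {h u : G} : u ∈ Zc U h ↔ u ∈ U ∧ u * h = h * u :=
  and_congr_right fun _ => mem_C

variable {a b : Ω} {U H : Subgroup G} {p n d m : ℕ} {j s : G}

namespace Su
variable (S : Su a b U H p n d m j s)
include S

theorem comm {h k : G} (hh : h ∈ H) (hk : k ∈ H) : h * k = k * h :=
  haveI := S.cyc
  congrArg Subtype.val (IsCyclic.commGroup.mul_comm (⟨h, hh⟩ : H) ⟨k, hk⟩)

theorem s2 : s * s = 1 := by
  obtain ⟨g, rfl⟩ := isConj_iff.1 S.cj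
  simp [S.j2]

theorem ss (x : G) : s * (s * x) = x := by rw [← mul_assoc, S.s2, one_mul]

theorem jj (x : G) : j * (j * x) = x := by rw [← mul_assoc, S.j2, one_mul]

theorem si : s⁻¹ = s := inv_eq_of_mul_eq_one_right S.s2

theorem ji : j⁻¹ = j := inv_eq_of_mul_eq_one_right S.j2

theorem sss (x : Ω) : s • s • x = x := by rw [← mul_smul, S.s2, one_smul]

theorem Ha {h : G} (hh : h ∈ H) : h • a = a := (S.memH.1 hh).1

theorem Hb {h : G} (hh : h ∈ H) : h • b = b := (S.memH.1 hh).2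

theorem Ua {u : G} (hu : u ∈ U) : u • a = a := S.ker.fix u hu

theorem sH {h : G} (hh : h ∈ H) : s * h * s ∈ H := by
  simp [S.memH, mul_smul, S.sa, S.sb, S.Ha hh, S.Hb hh]

theorem HU {h u : G} (hh : h ∈ H) (hu : u ∈ U) : h * u * h⁻¹ ∈ U := S.ker.norm h (S.Ha hh) u hu

theorem jU {u : G} (hu : u ∈ U) : j * u * j ∈ U := by simpa only [S.ji] using S.HU S.jH hu

theorem Ub {u : G} (hu : u ∈ U) : u • b ≠ a := S.ker.ne hu S.ab.symm

theorem inj {u v : G} (hu : u ∈ U) (hv : v ∈ U) (h : u • b = v • b) : u = v :=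
  S.ker.eq_of_smul_eq hu hv S.ab.symm h

theorem pt (x : Ω) : x = a ∨ ∃ u ∈ U, u • b = x :=
  or_iff_not_imp_left.2 fun h => S.ker.exists_smul S.ab.symm h

theorem tr {x y : Ω} (h : x ≠ y) : ∃ g : G, g • a = x ∧ g • b = y := two_trans S.two S.ab h

theorem cb {h : G} (hh : h ∈ H) (u : G) : (h * u * h⁻¹) • b = h • u • b := by
  rw [mul_smul, mul_smul, S.Hb (inv_mem hh)]

theorem fix_iff {h u : G} (hh : h ∈ H) (hu : u ∈ U) : h • u • b = u • b ↔ u ∈ Zc U h := by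
  rw [← S.cb hh, mem_Zc, and_iff_right hu, eq_comm (a := u * h), ← mul_inv_eq_iff_eq_mul]
  exact ⟨S.inj (S.HU hh hu) hu, fun e => by rw [e]⟩

theorem q3 : 3 ≤ p ^ n := S.p3.trans (Nat.le_self_pow S.n0 p)

theorem odd : Odd (p ^ n) := (S.hp.odd_of_ne_two (by have := S.p3; omega)).pow

theorem dp : d < p := by
  rcases S.hd with rfl | rfl
  · exact S.hp.one_lt
  · refine lt_of_le_of_ne S.p3 fun e => ?_
    have := S.dm
    have : 3 ∣ p ^ n := e.dvd.trans (dvd_pow_self p S.n0)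
    omega

theorem m2 : m % 2 = 0 := by
  have := S.dm; have := Nat.odd_iff.1 S.odd
  rcases S.hd with rfl | rfl <;> omega

theorem cop : d.Coprime (p ^ n - 1) := by
  rcases S.hd with rfl | rfl
  · simp
  · have := S.dm; have := S.q3
    exact Nat.prime_three.coprime_iff_not_dvd.2 (by omega)

theorem cH' : d * Nat.card H + 1 = (p ^ n) ^ 2 := by
  have := S.q3
  obtain ⟨r, hr⟩ : ∃ r, p ^ n = r + 1 := ⟨p ^ n - 1, by omega⟩
  rw [S.cH, mul_left_comm, ← S.dm, hr, Nat.add_sub_cancel]; ring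

theorem ex_f (x : G) : ∃ u, x ∈ U → x ≠ 1 → u ∈ U ∧ s • x • b = u • b := by
  by_cases h : x ∈ U ∧ x ≠ 1
  · rcases S.pt (s • x • b) with e | ⟨u, hu, e⟩
    · exact absurd (S.ker.eq_one h.1 S.ab.symm (by rw [← S.sss (x • b), e, S.sa])) h.2
    · exact ⟨u, fun _ _ => ⟨hu, e.symm⟩⟩
  · exact ⟨1, fun h1 h2 => absurd ⟨h1, h2⟩ h⟩

/-- the action of `s` -/
noncomputable def f (x : G) : G := (S.ex_f x).choose

theorem fU {x : G} (hx : x ∈ U) (h1 : x ≠ 1) : S.f x ∈ U := ((S.ex_f x).choose_spec hx h1).1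

theorem fb {x : G} (hx : x ∈ U) (h1 : x ≠ 1) : s • x • b = S.f x • b :=
  ((S.ex_f x).choose_spec hx h1).2

theorem f1 {x : G} (hx : x ∈ U) (h1 : x ≠ 1) : S.f x ≠ 1 := fun e => S.Ub hx (by
  rw [← S.sss (x • b), S.fb hx h1, e, one_smul, S.sb])

theorem ff {x : G} (hx : x ∈ U) (h1 : x ≠ 1) : S.f (S.f x) = x :=
  S.inj (S.fU (S.fU hx h1) (S.f1 hx h1)) hx (by
    rw [← S.fb (S.fU hx h1) (S.f1 hx h1), ← S.fb hx h1, S.sss])

theorem f_conj {h x : G} (hh : h ∈ H) (hx : x ∈ U) (h1 : x ≠ 1) :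
    S.f (h * x * h⁻¹) = s * h * s * S.f x * (s * h * s)⁻¹ :=
  S.inj (S.fU (S.HU hh hx) (by simpa using h1)) (S.HU (S.sH hh) (S.fU hx h1)) (by
    rw [← S.fb (S.HU hh hx) (by simpa using h1), S.cb hh, S.cb (S.sH hh), ← S.fb hx h1, mul_smul,
      mul_smul, S.sss])

theorem ex_tr {x : G} (hx : x ∈ U) (h1 : x ≠ 1) :
    ∃ h ∈ H, ∃ e ∈ U, s * x * s = S.f x * h * s * e := by
  obtain ⟨u, hu, h, ha, hb, e⟩ := S.ker.decomp S.ab (g := (s * (S.f x)⁻¹ * (s * x * s))⁻¹) (by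
    rw [inv_smul_eq_iff, mul_smul, mul_smul, mul_smul, mul_smul, S.sa, S.fb hx h1, inv_smul_smul,
      S.sb])
  refine ⟨s * h⁻¹ * s, S.sH (inv_mem (S.memH.2 ⟨ha, hb⟩)), u⁻¹, inv_mem hu, ?_⟩
  rw [inv_eq_iff_eq_inv, mul_inv_rev] at e
  simp only [mul_assoc, S.ss] at e ⊢
  rw [← e, S.ss, mul_inv_cancel_left]

theorem tr_uniq {g h e g' h' e' : G} (hg : g ∈ U) (hh : h ∈ H) (he : e ∈ U) (hg' : g' ∈ U)
    (hh' : h' ∈ H) (he' : e' ∈ U) (E : g * h * s * e = g' * h' * s * e') :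
    g = g' ∧ h = h' ∧ e = e' := by
  have h1 := congrArg (· • a) E
  simp only [mul_smul, S.Ua he, S.Ua he', S.sa, S.Hb hh, S.Hb hh'] at h1
  obtain rfl := S.inj hg hg' h1
  have h2 : e * e'⁻¹ = s * (h⁻¹ * h') * s := by
    calc _ = s * h⁻¹ * g⁻¹ * (g * h * s * e) * e'⁻¹ := by simp [mul_assoc, S.ss]
      _ = _ := by rw [E]; group
  obtain rfl := mul_inv_eq_one.1 (S.ker.eq_one (mul_mem he (inv_mem he')) S.ab.symm
    (h2 ▸ S.Hb (S.sH (mul_mem (inv_mem hh) hh'))))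
  exact ⟨rfl, by simpa using E, rfl⟩

theorem plus {h u : G} (hh : h ∈ H) (hu : u ∈ Zc U h) (h1 : u ≠ 1) : s * h * s = h := by
  obtain ⟨hu, e⟩ := mem_Zc.1 hu
  obtain ⟨k, hk, r, hr, E⟩ := S.ex_tr hu h1
  have h2 := S.sH hh
  have := (S.tr_uniq (S.fU hu h1) hk hr (S.HU h2 (S.fU hu h1))
    (mul_mem (mul_mem h2 hk) (inv_mem hh)) (S.HU h2 hr) (by
      calc _ = s * (h * u * h⁻¹) * s := by rw [← e, mul_inv_cancel_right, E]
        _ = s * h * s * (s * u * s) * (s * h * s)⁻¹ := by simp [mul_assoc, S.ss, S.si]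
        _ = _ := by rw [E]; simp [mul_assoc, S.ss, S.si])).2.1
  rw [S.comm h2 hk, mul_assoc, left_eq_mul, mul_inv_eq_one] at this
  exact this

variable [Finite G]

theorem uniq {t : G} (ht : t ∈ H) (h2 : t * t = 1) : t = 1 ∨ t = j := by
  haveI := S.cyc
  have o : orderOf (⟨j, S.jH⟩ : H) = 2 := by
    rw [← orderOf_coe]; exact orderOf_eq_two_iff.2 ⟨S.j2, S.j1⟩
  have := mem_of_pow (zpowers (⟨j, S.jH⟩ : H)) (h := ⟨t, ht⟩) (by
    rw [Nat.card_zpowers, o, pow_two]; exact Subtype.ext h2)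
  classical
  rw [mem_zpowers_iff_mem_range_orderOf, o] at this
  simpa [Finset.range_add_one, Subtype.ext_iff, eq_comm, or_comm] using this

theorem sj : s * j = j * s := by
  rcases S.uniq (S.sH S.jH) (by simp [mul_assoc, S.ss, S.jj, S.s2]) with e | e
  · exact absurd (by rw [← S.ss j, ← mul_left_inj s, mul_assoc, e]; simp) S.j1
  · rw [← mul_left_inj s, e, mul_assoc, S.s2, mul_one]

theorem conj_j {t : G} (h2 : t * t = 1) (h1 : t ≠ 1) {g : G} (ha : t • g • a = g • a)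
    (hb : t • g • b = g • b) : t = g * j * g⁻¹ := by
  rcases S.uniq (t := g⁻¹ * t * g) (by simp [S.memH, mul_smul, ha, hb])
    (by simp [mul_assoc, ← mul_assoc t, h2]) with e | e
  · exact absurd (by simpa [mul_assoc, inv_mul_eq_one] using e) h1
  · rw [← e]; group

theorem ppow {W : Subgroup G} (h : W ≤ U) : ∃ k, k ≤ 3 * n ∧ Nat.card W = p ^ k :=
  (Nat.dvd_prime_pow S.hp).1 (by rw [mul_comm, pow_mul, ← S.cU]; exact card_dvd_of_le h)

theorem ncard_b {T : Set G} (hT : T ⊆ U) : ((· • b) '' T).ncard = T.ncard :=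
  Set.ncard_image_of_injOn fun _ hu _ hv => S.inj (hT hu) (hT hv)

theorem card_fix {h : G} (hh : h ∈ H) : (fixedBy Ω h).ncard = Nat.card (Zc U h) + 1 := by
  have : fixedBy Ω h = insert a ((· • b) '' (Zc U h : Set G)) := by
    ext x
    refine ⟨fun e => (S.pt x).imp_right fun ⟨u, hu, e'⟩ => ⟨u, (S.fix_iff hh hu).1 (e' ▸ e), e'⟩, ?_⟩
    rintro (rfl | ⟨u, hu, rfl⟩)
    exacts [S.Ha hh, (S.fix_iff hh hu.1).2 hu]
  rw [this, Set.ncard_insert_of_notMem (by rintro ⟨u, hu, e⟩; exact S.Ub hu.1 e)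
    ((Set.toFinite _).image _), S.ncard_b fun _ e => e.1]
  rfl

theorem dvd_conj {E : Subgroup G} (hE : E ≤ H) {T : Set G} (hT : T ⊆ U)
    (h1 : ∀ h ∈ E, ∀ u ∈ T, h * u * h⁻¹ ∈ T) (h2 : ∀ h ∈ E, ∀ u ∈ T, u ∈ Zc U h → h = 1) :
    Nat.card E ∣ T.ncard := by
  rw [← S.ncard_b hT]
  refine card_dvd_of_semiregular E _ ?_ ?_
  · rintro h hh _ ⟨u, hu, rfl⟩
    exact ⟨_, h1 h hh u hu, S.cb (hE hh) u⟩
  · rintro h hh _ ⟨u, hu, rfl⟩ e
    exact h2 h hh u hu ((S.fix_iff (hE hh) (hT hu)).1 e)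

variable [Finite Ω]

theorem cΩ : Nat.card Ω = (p ^ n) ^ 3 + 1 := by rw [← S.ker.card_add_one S.ab, S.cU]

theorem dvd_fix {h u : G} (hh : h ∈ H) (hu : u ∈ Zc U h) (h1 : u ≠ 1) :
    Nat.card (Zc U h) + 1 ∣ (p ^ n) ^ 3 + 1 := by
  have hs : s ∈ centralizer {h} := mem_C.2 (by
    rw [← mul_left_inj s, S.plus hh hu h1, mul_assoc, S.s2, mul_one])
  have e1 : orbit (centralizer {h}) a = fixedBy Ω h := by
    ext x
    constructor
    · rintro ⟨g, rfl⟩
      show h • g.1 • a = g.1 • a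
      rw [← mul_smul, ← mem_C.1 g.2, mul_smul, S.Ha hh]
    · intro e
      rcases S.pt x with rfl | ⟨v, hv, rfl⟩
      · exact mem_orbit_self _
      · exact ⟨⟨v * s, mul_mem ((S.fix_iff hh hv).1 e).2 hs⟩, by
          show (v * s) • a = _; rw [mul_smul, S.sa]⟩
  have e2 : H.index = ((p ^ n) ^ 3 + 1) * (p ^ n) ^ 3 := by
    have := S.ker.card_group S.two S.ab
    rw [S.cΩ, S.cU, ← mul_assoc, ← H.index_mul_card,
      show stabilizer G a ⊓ stabilizer G b = H from Subgroup.ext fun _ => S.memH.symm] at this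
    exact Nat.eq_of_mul_eq_mul_right Nat.card_pos this
  have e3 : Nat.card (Zc U h) + 1 ∣ H.index := by
    rw [← S.card_fix hh, ← e1, ← index_stabilizer]
    exact (index_dvd_of_le (H := H.subgroupOf _) fun g hg => S.Ha hg).trans
      (relIndex_dvd_index_of_le fun g hg => mem_C.2 (S.comm hg hh))
  obtain ⟨k, -, hk⟩ := S.ppow (W := Zc U h) inf_le_left
  have k0 : k ≠ 0 := by
    rintro rfl
    exact h1 (mem_bot.1 (card_eq_one.1 hk ▸ hu))
  rw [e2, hk] at e3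
  rw [hk]
  exact (((Nat.coprime_self_add_left.2 (Nat.coprime_one_left _)).coprime_dvd_right
    (dvd_pow_self p k0)).pow_right n |>.pow_right 3).dvd_of_dvd_mul_right e3

open Classical in
theorem count [Fintype G] :
    (Finset.univ.filter fun t => IsConj j t ∧ t • a = b).card *
      (Nat.card (Zc U j) * (Nat.card (Zc U j) + 1)) + Nat.card (Zc U j) = (p ^ n) ^ 3 := by
  haveI := Fintype.ofFinite Ω
  set c := Nat.card (Zc U j)
  let J := Finset.univ.filter fun t => IsConj j t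
  have fx : ∀ t ∈ J, (Finset.univ.filter fun x : Ω => t • x = x).card = c + 1 := fun t ht => by
    obtain ⟨g, rfl⟩ := isConj_iff.1 (Finset.mem_filter.1 ht).2
    rw [← S.card_fix S.jH, ← ncard_fixedBy_conj g, ← Set.ncard_coe_finset]
    congr 1; ext; simp
  have h1 := Finset.card_mul_eq_card_mul (s := J) (t := (Finset.univ : Finset Ω).offDiag)
    (fun t x => t • x.1 = x.1 ∧ t • x.2 = x.2) (m := c * (c + 1)) (n := 1) (fun t ht => by
      rw [show Finset.bipartiteAbove _ _ t = (Finset.univ.filter fun x : Ω => t • x = x).offDiag by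
        ext x; simp [Finset.bipartiteAbove]; tauto, Finset.offDiag_card, fx t ht, add_mul, one_mul,
        Nat.add_sub_cancel]) fun x hx => by
      obtain ⟨g, e1, e2⟩ := S.tr (Finset.mem_offDiag.1 hx).2.2
      refine Finset.card_eq_one.2 ⟨g * j * g⁻¹, Finset.eq_singleton_iff_unique_mem.2 ⟨?_, fun t ht => ?_⟩⟩
      · simp [J, ← e1, ← e2, mul_smul, S.Ha S.jH, S.Hb S.jH]
      · simp only [J, Finset.mem_bipartiteBelow, Finset.mem_filter, ← e1, ← e2] at ht
        obtain ⟨k, rfl⟩ := isConj_iff.1 ht.1.2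
        exact S.conj_j (by simp [S.j2]) (by simp [S.j1]) ht.2.1 ht.2.2
  have h2 := Finset.card_mul_eq_card_mul (s := J) (t := (Finset.univ : Finset Ω).offDiag)
    (fun t x => t • x.1 = x.2) (m := (p ^ n) ^ 3 - c)
    (n := (Finset.univ.filter fun t => IsConj j t ∧ t • a = b).card) (fun t ht => by
      have := Finset.card_filter_add_card_filter_not (s := Finset.univ) fun x : Ω => t • x = x
      rw [fx t ht, Finset.card_univ, ← Nat.card_eq_fintype_card, S.cΩ] at this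
      rw [show (p ^ n) ^ 3 - c = (Finset.univ.filter fun x : Ω => ¬ t • x = x).card by omega]
      refine Finset.card_nbij' (·.1) (fun x => (x, t • x)) ?_ ?_ ?_ ?_
      · rintro ⟨x, y⟩; simp [Finset.bipartiteAbove]; rintro e rfl; exact Ne.symm e
      · intro x; simp [Finset.bipartiteAbove]; exact Ne.symm
      · rintro ⟨x, y⟩; simp [Finset.bipartiteAbove]
      · intro x; simp) fun x hx => by
      obtain ⟨g, e1, e2⟩ := S.tr (Finset.mem_offDiag.1 hx).2.2
      refine Finset.card_nbij' (fun t => g⁻¹ * t * g) (fun t => g * t * g⁻¹) ?_ ?_ ?_ ?_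
      · intro t ht
        simp only [J, Finset.coe_filter, Finset.mem_coe, Finset.mem_bipartiteBelow, Finset.mem_filter,
          ← e1, ← e2, Finset.mem_univ, true_and, Set.mem_setOf_eq] at ht ⊢
        exact ⟨ht.1.trans (isConj_iff.2 ⟨g⁻¹, by simp⟩), by simp [mul_smul, ht.2]⟩
      · intro t ht
        simp only [J, Finset.coe_filter, Finset.mem_coe, Finset.mem_bipartiteBelow, Finset.mem_filter,
          ← e1, ← e2, Finset.mem_univ, true_and, Set.mem_setOf_eq] at ht ⊢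
        exact ⟨ht.1.trans (isConj_iff.2 ⟨g, rfl⟩), by simp [mul_smul, ht.2]⟩
      · intro t _; simp [mul_assoc]
      · intro t _; simp [mul_assoc]
  have J0 : 0 < J.card := Finset.card_pos.2 ⟨j, Finset.mem_filter.2 ⟨Finset.mem_univ _, IsConj.refl j⟩⟩
  have c1 : c ≤ (p ^ n) ^ 3 := S.cU ▸ card_le_of_le inf_le_left
  rw [mul_one] at h1
  rw [← h1, mul_assoc] at h2
  have := Nat.eq_of_mul_eq_mul_left J0 h2
  rw [mul_comm, ← this]
  omega

end Su

end Cfsg.Agent.ON
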