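import Cfsg.Agent.ON.B
import Cfsg.Agent.H4.CABasic

/-!
Groups of odd unitary type: structure of the Borel subgroup.
-/

set_option autoImplicit false
set_option maxHeartbeats 400000
set_option linter.unusedSectionVars false

namespace Cfsg.Agent.ON

open MulAction Subgroup Cfsg.Agent.H4.Basic Cfsg.Agent.H4.Zass Cfsg.Agent.Rk1.Fc

variable {G Ω : Type*} [Group G] [MulAction G Ω]
variable {a b : Ω} {U H : Subgroup G} {p n d m : ℕ} {j s : G}

/-- invariance under `H` -/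
def Iv (H W : Subgroup G) : Prop := ∀ h ∈ H, ∀ w ∈ W, h * w * h⁻¹ ∈ W

theorem Iv.cent {W : Subgroup G} (h : Iv H W) : Iv H (centralizer (W : Set G)) :=
  fun g hg w hw x hx => by
    have := hw _ (h g⁻¹ (inv_mem hg) x hx)
    calc _ = g * (g⁻¹ * x * g⁻¹⁻¹ * w) * g⁻¹ := by group
      _ = _ := by rw [this]; group

theorem Iv.inf {V W : Subgroup G} (h : Iv H V) (h' : Iv H W) : Iv H (V ⊓ W) :=
  fun g hg w hw => ⟨h g hg w hw.1, h' g hg w hw.2⟩

theorem one_cop {a : G} {m n : ℕ} (h1 : a ^ m = 1) (h2 : a ^ n = 1) (h : m.Coprime n) : a = 1 :=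
  orderOf_eq_one_iff.1 (Nat.eq_one_of_dvd_coprimes h (orderOf_dvd_of_pow_eq_one h1)
    (orderOf_dvd_of_pow_eq_one h2))

theorem pow_card {A : Subgroup G} {a : G} (h : a ∈ A) : a ^ Nat.card A = 1 :=
  congrArg Subtype.val (pow_card_eq_one' (x := (⟨a, h⟩ : A)))

namespace Su
variable (S : Su a b U H p n d m j s)
include S

theorem ivU : Iv H U := fun _ hh _ hu => S.HU hh hu

theorem ivZ {k : G} (hk : k ∈ H) : Iv H (Zc U k) := S.ivU.inf fun h hh w hw => mem_C.2 (by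
  rw [mul_assoc, S.comm (inv_mem hh) hk, mul_assoc, ← mul_assoc w, mem_C.1 hw, ← mul_assoc,
    ← mul_assoc, S.comm hh hk]; group)

theorem sps (h : G) (k : ℕ) : s * h ^ k * s = (s * h * s) ^ k := by
  simpa only [S.si] using (conj_pow (a := s) (b := h) (i := k)).symm

theorem sms (h k : G) : s * (h * k) * s = s * h * s * (s * k * s) := by simp [mul_assoc, S.ss]

theorem sis (h : G) : s * h⁻¹ * s = (s * h * s)⁻¹ := by simp [mul_assoc, S.si]

/-- the elements inverted by `s` -/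
def Hm : Subgroup G where
  carrier := {h | h ∈ H ∧ s * h * s = h⁻¹}
  one_mem' := ⟨one_mem _, by simp [S.s2]⟩
  mul_mem' := fun h k => ⟨mul_mem h.1 k.1, by rw [S.sms, h.2, k.2, S.comm h.1 k.1, mul_inv_rev]⟩
  inv_mem' := fun h => ⟨inv_mem h.1, by rw [S.sis, h.2]⟩

variable [Finite G]

theorem Uodd {u : G} (hu : u ∈ U) (h : u * u = 1) : u = 1 :=
  one_cop ((pow_two u).trans h) (pow_card hu) (S.cU ▸ Nat.coprime_two_left.2 S.odd.pow)

theorem mem_pow {K : Subgroup G} (hK : K ≤ H) {h : G} (hh : h ∈ H) (e : h ^ Nat.card K = 1) :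
    h ∈ K :=
  haveI := S.cyc
  mem_of_pow (K.subgroupOf H) (h := ⟨h, hh⟩) (Subtype.ext (by
    rw [Nat.card_congr (subgroupOfEquivOfLe hK).toEquiv]; exact e))

theorem card_dvd {K : Subgroup G} (hK : K ≤ H) {e : ℕ} (h : ∀ k ∈ K, k ^ e = 1) : Nat.card K ∣ e := by
  haveI := S.cyc
  haveI := isCyclic_of_le hK
  rw [← IsCyclic.exponent_eq_card]
  exact Monoid.exponent_dvd_of_forall_pow_eq_one fun k => Subtype.ext (h k k.2)

theorem gen : ∃ g ∈ H, orderOf g = (p ^ n - 1) * m ∧ ∀ h ∈ H, ∃ k : ℕ, g ^ k = h := by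
  obtain ⟨g, hg⟩ := S.cyc.exists_monoid_generator
  exact ⟨g, g.2, by
    rw [orderOf_coe, ← S.cH]
    exact orderOf_eq_card_of_forall_mem_powers hg,
    fun h hh => (hg ⟨h, hh⟩).imp fun k e => congrArg Subtype.val e⟩

theorem orb {W : Subgroup G} (hW : W ≤ Zc U j) (hi : Iv H W) (h1 : W ≠ ⊥) :
    Nat.card S.Hm + 2 ≤ 2 * Nat.card W := by
  obtain ⟨z, hz, z1⟩ := W.bot_or_exists_ne_one.resolve_left h1
  have e1 := card_cls S.Hm z
  have e2 : Nat.card (centralizer {z} ⊓ S.Hm : Subgroup G) ≤ 2 :=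
    (Set.ncard_le_ncard (t := {1, j}) fun h hh => S.uniq hh.2.1 (mul_eq_one_iff_eq_inv.2 (by
      rw [← hh.2.2, S.plus hh.2.1 (mem_Zc.2 ⟨(hW hz).1, (mem_C.1 hh.1).symm⟩) z1]))).trans
      (Set.ncard_pair S.j1.symm).le
  have e3 : (cls S.Hm z).ncard ≤ ((W : Set G) \ {1}).ncard := Set.ncard_le_ncard (by
    rintro _ ⟨h, hh, rfl⟩
    exact ⟨hi h hh.1 z hz, by simpa using z1⟩)
  have e4 := Set.ncard_sdiff_singleton_add_one (s := (W : Set G)) W.one_mem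
  have := Nat.mul_le_mul e2 e3
  change _ = Nat.card W at e4
  omega

variable [Finite Ω]

open Classical in
theorem cZ' [Fintype G] : Nat.card (Zc U j) = p ^ n ∧
    (Finset.univ.filter fun t => IsConj j t ∧ t • a = b).card + 1 = p ^ n ∧
    p ^ n ≤ Nat.card S.Hm + 1 := by
  obtain ⟨k, -, hk⟩ := S.ppow (W := Zc U j) inf_le_left
  have h1 := S.count
  have h2 : (Finset.univ.filter fun t => IsConj j t ∧ t • a = b).card ≤ Nat.card S.Hm := by
    rw [← Set.ncard_coe_finset]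
    refine Set.ncard_le_ncard_of_injOn (t := S.Hm) (· * s) (fun t ht => ?_) fun _ _ _ _ e =>
      mul_right_cancel e
    obtain ⟨g, rfl⟩ := isConj_iff.1 (Finset.mem_filter.1 ht).2.1
    have e := (Finset.mem_filter.1 ht).2.2
    have e2 : g * j * g⁻¹ * (g * j * g⁻¹) = 1 := by simp [S.j2]
    exact ⟨S.memH.2 ⟨by rw [mul_smul, S.sa, ← e, ← mul_smul, e2, one_smul],
      by rw [mul_smul, S.sb, e]⟩, by
      rw [mul_inv_rev, inv_eq_of_mul_eq_one_right e2, S.si, mul_assoc, mul_assoc, S.s2, mul_one]⟩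
  have h3 := card_le_of_le (show S.Hm ≤ H from fun _ e => e.1)
  have h4 := S.cH'
  have h5 := Nat.mul_le_mul_right (Nat.card H) (show 1 ≤ d by have := S.hd; omega)
  rw [hk] at h1
  obtain ⟨rfl, e⟩ := n3 S.p3 S.n0 h1
    (Finset.card_ne_zero.2 ⟨s, Finset.mem_filter.2 ⟨Finset.mem_univ _, S.cj, S.sa⟩⟩)
    (fun e => by
      have := S.orb le_rfl (S.ivZ S.jH) fun e' => e (by rw [← hk, e', card_bot])
      omega) (by omega)
  exact ⟨hk, e, by omega⟩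

theorem cZ : Nat.card (Zc U j) = p ^ n := by
  haveI := Fintype.ofFinite G
  exact S.cZ'.1

theorem irrZ {W : Subgroup G} (hW : W ≤ Zc U j) (hi : Iv H W) (h1 : W ≠ ⊥) : W = Zc U j := by
  haveI := Fintype.ofFinite G
  have h2 := S.orb hW hi h1
  have h3 := S.cZ'.2.2
  obtain ⟨k, -, hk⟩ := S.ppow (hW.trans inf_le_left)
  refine eq_of_le_of_card_ge hW ?_
  rw [S.cZ, hk]
  exact Nat.pow_le_pow_right S.hp.pos (n4 S.p3 (by omega))

theorem exZ : ∃ z ∈ Zc U j, z ≠ 1 := (Zc U j).bot_or_exists_ne_one.resolve_left fun e => by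
  have := S.cZ
  have := S.q3
  rw [e, card_bot] at *
  omega

theorem f3 {h z : G} (hh : h ∈ H) (hz : z ∈ Zc U j) (z1 : z ≠ 1) (e : z * h = h * z) {w : G}
    (hw : w ∈ Zc U j) : w * h = h * w :=
  (mem_Zc.1 ((S.irrZ inf_le_left ((S.ivZ S.jH).inf (S.ivZ hh)) fun e' =>
    z1 (mem_bot.1 (e' ▸ ⟨hz, mem_Zc.2 ⟨hz.1, e⟩⟩))).ge hw).2).2

theorem f1' {h z : G} (hh : h ∈ H) (hz : z ∈ Zc U j) : z * h ^ (p ^ n - 1) = h ^ (p ^ n - 1) * z := by
  letI : MulAction H (Zc U j) :=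
    { smul := fun h z => ⟨h * z * h⁻¹, S.ivZ S.jH h h.2 z z.2⟩
      one_smul := fun z => Subtype.ext (show (1 : G) * z * 1⁻¹ = z by simp)
      mul_smul := fun h k z => Subtype.ext
        (show (h * k : G) * z * (h * k : G)⁻¹ = h * (k * z * (k : G)⁻¹) * (h : G)⁻¹ by group) }
  haveI : ((centralizer (Zc U j : Set G)).subgroupOf H).Normal := ⟨fun x hx g => by
    rwa [show g * x * g⁻¹ = x from Subtype.ext (mul_inv_eq_iff_eq_mul.2 (S.comm g.2 x.2))]⟩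
  obtain ⟨c, hc⟩ := H4.CABasic.dvd_of_orbits (H := H) (1 : Zc U j)
    (fun h => Subtype.ext (show (h : G) * 1 * h⁻¹ = 1 by simp))
    ((centralizer (Zc U j : Set G)).subgroupOf H).index fun z z1 => congrArg _ (Subgroup.ext fun h =>
      ⟨fun e w hw => S.f3 h.2 z.2 (fun e => z1 (Subtype.ext e))
        (mul_inv_eq_iff_eq_mul.1 (congrArg Subtype.val e)).symm hw,
      fun e => Subtype.ext (mul_inv_eq_iff_eq_mul.2 (e z z.2).symm)⟩)
  rw [← S.cZ, hc, pow_mul]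
  exact pow_mem (show h ^ _ ∈ centralizer (Zc U j : Set G) from
    Subgroup.pow_index_mem ((centralizer (Zc U j : Set G)).subgroupOf H) ⟨h, hh⟩) c z hz

theorem f2 {h : G} (hh : h ∈ H) : s * h ^ (p ^ n - 1) * s = h ^ (p ^ n - 1) :=
  S.exZ.elim fun _ hz => S.plus (pow_mem hh _) (mem_Zc.2 ⟨hz.1.1, S.f1' hh hz.1⟩) hz.2

theorem f4 {h : G} (hh : h ∈ H) (e : h ^ (p ^ n - 1) = 1) : s * h * s = h⁻¹ := by
  haveI := Fintype.ofFinite G
  obtain ⟨c, hc⟩ := S.card_dvd (K := S.Hm) (fun _ e => e.1) (e := (p ^ n - 1) * 2) fun k hk => by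
    rw [pow_mul, pow_two, mul_eq_one_iff_eq_inv, ← (pow_mem hk _).2, S.f2 hk.1]
  have h3 := S.cZ'.2.2
  have := S.q3
  refine (S.mem_pow (K := S.Hm) (fun _ e => e.1) hh ?_).2
  rcases (by omega : c = 0 ∨ c = 1 ∨ c = 2 ∨ 3 ≤ c) with rfl | rfl | rfl | h
  · omega
  · rw [mul_one] at hc; rw [← hc, pow_mul, e, one_pow]
  · rwa [← Nat.eq_of_mul_eq_mul_right two_pos hc]
  · have := Nat.mul_le_mul_left (Nat.card S.Hm) h
    omega

theorem pw {h : G} (hh : h ∈ H) : (h ^ (p ^ n + 1)) ^ (p ^ n - 1) = 1 := by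
  rw [← pow_mul, S.dm, mul_assoc, mul_comm, mul_comm m, ← S.cH, pow_mul, pow_card hh, one_pow]

theorem e2 {h : G} (hh : h ∈ H) : s * h * s * h ^ p ^ n = 1 ∨ s * h * s * h ^ p ^ n = j := by
  refine S.uniq (mul_mem (S.sH hh) (pow_mem hh _)) ?_
  have h1 := S.f2 hh
  have h2 := S.f4 (pow_mem hh _) (S.pw hh)
  have := S.q3
  obtain ⟨r, hr⟩ : ∃ r, p ^ n = r + 1 := ⟨p ^ n - 1, by omega⟩
  have c : Commute (s * h * s) h := S.comm (S.sH hh) hh
  rw [S.sps, hr] at h1 h2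
  rw [Nat.add_sub_cancel] at h1
  rw [hr]
  generalize s * h * s = x at *
  calc _ = x * (h ^ (r + 1) * x) * h ^ (r + 1) := by group
    _ = x * x * h ^ r * h ^ (r + 1 + 1) := by rw [← (c.pow_right _).eq]; group
    _ = 1 := by rw [← h1, ← inv_mul_cancel (h ^ (r + 1 + 1)), ← h2]; group

theorem f5 {h z : G} (hh : h ∈ H) (e : h ^ (p ^ n + 1) = 1) (hz : z ∈ Zc U j) : z * h = h * z := by
  obtain ⟨g, hg, o, hg'⟩ := S.gen
  obtain ⟨k, rfl⟩ := hg' h hh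
  rw [← pow_mul, ← orderOf_dvd_iff_pow_eq_one, o, S.dm, ← mul_assoc] at e
  obtain ⟨l, rfl⟩ := S.cop.symm.dvd_of_dvd_mul_right (Nat.dvd_of_mul_dvd_mul_right
    (Nat.pos_of_ne_zero (by rintro rfl; simpa using S.dm)) e)
  rw [mul_comm (p ^ n - 1), pow_mul]
  exact S.f1' (pow_mem hg l) hz

variable [FaithfulSMul G Ω]

theorem triv {h : G} (hh : h ∈ H) (e : U ≤ Zc U h) : h = 1 :=
  eq_of_smul_eq_smul (α := Ω) fun x => by
    rcases S.pt x with rfl | ⟨u, hu, rfl⟩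
    · rw [S.Ha hh, one_smul]
    · rw [(S.fix_iff hh hu).2 (e hu), one_smul]

theorem semi {h u : G} (hh : h ∈ H) (hu : u ∈ Zc U h) (hZ : u ∉ Zc U j) : h = 1 := by
  by_contra h1
  obtain ⟨r, hr, k, hk⟩ := Nat.exists_prime_and_dvd (n := orderOf h) (by simpa using h1)
  have k1 : h ^ k ≠ 1 := fun e => by
    have := Nat.le_of_dvd (Nat.pos_of_ne_zero (by
      rintro rfl; exact (orderOf_pos h).ne' hk)) (orderOf_dvd_of_pow_eq_one e)
    have := orderOf_pos h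
    nlinarith [hr.two_le]
  have k2 : (h ^ k) ^ r = 1 := by rw [← pow_mul, mul_comm, ← hk, pow_orderOf_eq_one]
  replace hu : u ∈ Zc U (h ^ k) := mem_Zc.2 ⟨hu.1, (Commute.pow_right (mem_Zc.1 hu).2 k).eq⟩
  replace hh := pow_mem hh k
  generalize h ^ k = h at *
  have u1 : u ≠ 1 := fun e => hZ (e ▸ one_mem _)
  rcases hr.eq_two_or_odd' with rfl | ho
  · rcases S.uniq hh ((pow_two h).symm.trans k2) with e | rfl
    exacts [k1 e, hZ hu]
  have e1 : h ^ (p ^ n + 1) = 1 := by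
    have := S.e2 hh
    rw [S.plus hh hu u1, ← pow_succ'] at this
    refine this.resolve_right fun e => S.j1 (one_cop ((pow_two j).trans S.j2) (n := r) ?_
      (Nat.coprime_two_left.2 ho))
    rw [← e, ← pow_mul, mul_comm, pow_mul, k2, one_pow]
  have e2 : Zc U j < Zc U h :=
    lt_of_le_of_ne (fun z hz => mem_Zc.2 ⟨hz.1, S.f5 hh e1 hz⟩) fun e => hZ (e ▸ hu)
  obtain ⟨l, l1, hl⟩ := S.ppow (W := Zc U h) inf_le_left
  have e3 := S.dvd_fix hh hu u1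
  have e4 : p ^ n < p ^ l := by
    rw [← hl, ← S.cZ]
    exact lt_of_le_of_ne (card_le_of_le e2.le) fun e => e2.ne (eq_of_le_of_card_ge e2.le e.ge)
  rw [hl, ← pow_mul, mul_comm n] at e3
  have := n2 S.hp.two_le e3 ((Nat.pow_lt_pow_iff_right S.hp.one_lt).1 e4) l1
  exact k1 (S.triv hh (eq_of_le_of_card_ge inf_le_left (by
    rw [hl, S.cU, this, mul_comm, pow_mul])).ge)

theorem big {W : Subgroup G} (hW : W ≤ U) (hi : Iv H W) (h : ¬ W ≤ Zc U j) :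
    (p ^ n) ^ 2 * Nat.card (W ⊓ Zc U j : Subgroup G) ≤ Nat.card W := by
  have h1 := S.dvd_conj le_rfl (T := (W : Set G) \ (W ⊓ Zc U j : Subgroup G)) (fun _ e => hW e.1)
    (fun h hh u hu => ⟨hi h hh u hu.1, fun e => hu.2 ⟨hu.1, by
      simpa [mul_assoc] using S.ivZ S.jH h⁻¹ (inv_mem hh) _ e.2⟩⟩)
    fun h hh u hu e => S.semi hh e fun e' => hu.2 ⟨hu.1, e'⟩
  rw [Set.ncard_diff fun _ e => e.1] at h1
  obtain ⟨k, -, hk⟩ := S.ppow hW
  obtain ⟨l, -, hl⟩ := S.ppow (W := W ⊓ Zc U j) (inf_le_left.trans hW)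
  have h2 : l < k := by
    rw [← Nat.pow_lt_pow_iff_right S.hp.one_lt, ← hk, ← hl]
    exact lt_of_le_of_ne (card_le_of_le inf_le_left) fun e =>
      h (inf_eq_left.1 (eq_of_le_of_card_ge inf_le_left e.ge))
  obtain ⟨r, rfl⟩ := Nat.exists_eq_add_of_le h2.le
  change _ ∣ Nat.card W - Nat.card (W ⊓ Zc U j : Subgroup G) at h1
  have h3 : 1 < p ^ r := Nat.one_lt_pow (by omega) S.hp.one_lt
  rw [hk, hl, pow_add, ← Nat.mul_sub_one] at h1
  have h4 : (Nat.card H).Coprime p := (S.hp.coprime_iff_not_dvd.2 fun e => S.hp.one_lt.ne'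
    (Nat.dvd_one.1 ((Nat.dvd_add_right (e.mul_left d)).1
      (S.cH' ▸ (dvd_pow_self p S.n0).trans (dvd_pow_self _ two_ne_zero))))).symm
  have h5 := Nat.le_of_dvd (by omega) ((h4.pow_right l).dvd_of_dvd_mul_left h1)
  have := n5 (by have := S.hd; omega) S.dp S.cH' (k := r) (by omega)
  rw [hk, hl, ← pow_mul, ← pow_add]
  exact Nat.pow_le_pow_right S.hp.pos (by omega)

theorem irrU {W : Subgroup G} (hW : W ≤ U) (hi : Iv H W) (h : ¬ W ≤ Zc U j) (hZ : Zc U j ≤ W) :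
    W = U := by
  have := S.big hW hi h
  rw [inf_eq_right.2 hZ, S.cZ, ← pow_succ, ← S.cU] at this
  exact eq_of_le_of_card_ge hW this

theorem pU : IsPGroup p U := IsPGroup.of_card (n := n * 3) (by rw [S.cU, pow_mul])

theorem exc {W : Subgroup G} (hW : W ≤ U) (h : Zc U j ≤ W) :
    W ⊓ centralizer (W : Set G) ≠ ⊥ := by
  haveI := Fact.mk S.hp
  obtain ⟨z, hz, z1⟩ := S.exZ
  obtain ⟨w, hw, w1, e⟩ := cent_mod (S.pU.to_le hW) (A := ⊥) (B := W)
    (bot_lt_iff_ne_bot.2 fun e => z1 (mem_bot.1 (e ▸ h hz))) le_rfl (by simp)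
    fun g hg z hz => mul_mem (mul_mem hg hz) (inv_mem hg)
  exact fun e' => w1 (e' ▸ ⟨hw, fun g hg =>
    mul_inv_eq_iff_eq_mul.1 (mul_inv_eq_one.1 (mem_bot.1 (e g hg)))⟩)

theorem central {z u : G} (hz : z ∈ Zc U j) (hu : u ∈ U) : z * u = u * z := by
  have h1 := S.irrZ inf_le_left ((S.ivZ S.jH).inf (S.ivZ S.jH).cent) (S.exc inf_le_left le_rfl)
  by_cases h : U ⊓ centralizer (U : Set G) ≤ Zc U j
  · exact (((S.irrZ h (S.ivU.inf S.ivU.cent) (S.exc le_rfl inf_le_left)).ge hz).2 u hu).symm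
  · exact ((S.irrU (W := U ⊓ centralizer (Zc U j : Set G)) inf_le_left (S.ivU.inf (S.ivZ S.jH).cent)
      (fun e => h fun x hx => e ⟨hx.1, fun y hy => hx.2 y hy.1⟩)
      fun x hx => ⟨hx.1, (h1.ge hx).2⟩).ge hu).2 z hz

theorem ZU : Zc U j < U := lt_of_le_of_ne inf_le_left fun e => S.j1 (S.triv S.jH e.ge)

theorem commU {u v : G} (hu : u ∈ U) (hv : v ∈ U) : u * v * u⁻¹ * v⁻¹ ∈ Zc U j := by
  haveI := Fact.mk S.hp
  have nZ : ∀ g ∈ U, ∀ z ∈ Zc U j, g * z * g⁻¹ ∈ Zc U j := fun g hg z hz => by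
    rwa [← S.central hz hg, mul_inv_cancel_right]
  obtain ⟨w, hw, w1, e⟩ := cent_mod S.pU S.ZU le_rfl nZ
    fun g hg z hz => mul_mem (mul_mem hg hz) (inv_mem hg)
  let W : Subgroup G :=
    { carrier := {w | w ∈ U ∧ ∀ g ∈ U, g * w * g⁻¹ * w⁻¹ ∈ Zc U j}
      one_mem' := ⟨one_mem _, fun g _ => by simp [one_mem]⟩
      mul_mem' := fun {x y} hx hy => ⟨mul_mem hx.1 hy.1, fun g hg => by
        convert mul_mem (hx.2 g hg) (nZ x hx.1 _ (hy.2 g hg)) using 1; group⟩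
      inv_mem' := fun {x} hx => ⟨inv_mem hx.1, fun g hg => by
        convert nZ _ (inv_mem hx.1) _ (inv_mem (hx.2 g hg)) using 1; group⟩ }
  exact ((S.irrU (W := W) (fun _ e => e.1) (fun h hh x hx => ⟨S.HU hh hx.1, fun g hg => by
    convert S.ivZ S.jH h hh _ (hx.2 _ (S.HU (inv_mem hh) hg)) using 1; group⟩)
    (fun e' => w1 (e' ⟨hw, e⟩)) fun z hz => ⟨hz.1, fun g hg =>
      mul_mem (nZ g hg z hz) (inv_mem hz)⟩).ge hv).2 u hu

end Su

end Cfsg.Agent.ON
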