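import Cfsg.Agent.ON.C
import Cfsg.Agent.H4.Coord

/-!
Groups of odd unitary type: the action of the Weyl element on the torus, and coordinates.
-/

set_option autoImplicit false
set_option maxHeartbeats 400000
set_option linter.unusedSectionVars false

namespace Cfsg.Agent.ON

open MulAction Subgroup Cfsg.Agent.H4.Basic Cfsg.Agent.H4.Zass Cfsg.Agent.Rk1.Fc

variable {G Ω : Type*} [Group G] [MulAction G Ω]
variable {a b : Ω} {U H : Subgroup G} {p n d m : ℕ} {j s : G}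

namespace Su
variable (S : Su a b U H p n d m j s) [Finite G] [Finite Ω] [FaithfulSMul G Ω]
include S

theorem fix_off {t : G} (h2 : t * t = 1) (hc : t * j = j * t) (ha : t • a ≠ a) {x : Ω}
    (hx : j • x = x) : t • x ≠ x := fun e => by
  have h1 := ncard_modEq_fixed_elt Nat.prime_two (k := 1) (g := t) (by rw [pow_one, pow_two, h2])
    (fixedBy Ω j) (Set.toFinite _) fun y hy => by
      show j • t • y = t • y
      rw [← mul_smul, ← hc, mul_smul, show j • y = y from hy]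
  rw [S.card_fix S.jH, S.cZ] at h1
  have h3 := Nat.odd_iff.1 S.odd
  obtain ⟨y, hy, ne⟩ := Set.exists_ne_of_one_lt_ncard (s := {x ∈ fixedBy Ω j | t • x = x}) (by
    have := (Set.ncard_pos (s := {x ∈ fixedBy Ω j | t • x = x})).2 ⟨x, hx, e⟩
    unfold Nat.ModEq at h1
    omega) x
  obtain ⟨g, rfl, rfl⟩ := S.tr ne
  exact ha (by
    rw [S.conj_j h2 (fun e => ha (by rw [e, one_smul])) hy.2 e, ← S.conj_j S.j2 S.j1 hy.1 hx,
      S.Ha S.jH])

theorem plus_pow {h : G} (hh : h ∈ H) (e : s * h * s = h) : h ^ (p ^ n + 1) = 1 := by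
  have h1 := card_dvd_of_semiregular (H ⊓ centralizer {s}) (fixedBy Ω s) (fun g hg x hx => by
    show s • g • x = g • x
    rw [← mul_smul, ← mem_C.1 hg.2, mul_smul, show s • x = x from hx]) fun g hg x hx e => by
      rcases S.pt x with rfl | ⟨u, hu, rfl⟩
      · exact absurd (S.sa.symm.trans hx) S.ab.symm
      · exact S.semi hg.1 ((S.fix_iff hg.1 hu).1 e) fun e' =>
          S.fix_off S.s2 S.sj (S.sa ▸ S.ab.symm) ((S.fix_iff S.jH hu).2 e') hx
  have h2 : (fixedBy Ω s).ncard = p ^ n + 1 := by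
    obtain ⟨g, e⟩ := isConj_iff.1 S.cj
    rw [← e, ncard_fixedBy_conj, S.card_fix S.jH, S.cZ]
  obtain ⟨c, hc⟩ := h1
  rw [← h2, hc, pow_mul, pow_card (A := H ⊓ centralizer {s}) ⟨hh, mem_C.2 (by
    rw [← mul_right_inj s, ← mul_assoc, e, S.ss])⟩, one_pow]

theorem real_sq {y k : G} (hc : y * j = j * y) {x : Ω} (hx : y • x = x) (hj : j • x ≠ x)
    (hk : k * y * k⁻¹ = y⁻¹) : y * y = 1 := by
  have key : ∀ y ∈ H, s * y * s = y → ∀ k, k * y * k⁻¹ = y⁻¹ → y * y = 1 := by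
    intro y hy e k hk
    by_contra y2
    have y1 : y ≠ 1 := fun e => y2 (by simp [e])
    have fx : ∀ (k : G) (x : Ω), k * y * k⁻¹ = y⁻¹ → y • x = x → y • k • x = k • x := fun k x hk hx => by
      rw [← eq_inv_smul_iff, ← hk, mul_smul, mul_smul, inv_smul_smul, hx]
    have cj : ∀ c k, c * y = y * c → k * y * k⁻¹ = y⁻¹ → c * k * y * (c * k)⁻¹ = y⁻¹ :=
      fun c k h1 h2 => by
        calc _ = c * (k * y * k⁻¹) * c⁻¹ := by group
          _ = (c * y * c⁻¹)⁻¹ := by rw [h2]; group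
          _ = _ := by rw [h1, mul_inv_cancel_right]
    obtain ⟨k, hk, ka⟩ : ∃ k, k * y * k⁻¹ = y⁻¹ ∧ k • a = a := by
      rcases S.pt (k • a) with e' | ⟨u, hu, e'⟩
      · exact ⟨k, hk, e'⟩
      · have := (S.fix_iff hy hu).1 (e' ▸ fx k a hk (S.Ha hy))
        exact ⟨s * (u⁻¹ * k), cj _ _ (by rw [← mul_right_inj s, S.ss, ← mul_assoc, e])
          (cj _ _ (mem_Zc.1 (inv_mem this)).2 hk), by
          rw [mul_smul, mul_smul, ← e', inv_smul_smul, S.sb]⟩
    rcases S.pt (k • b) with e' | ⟨u, hu, e'⟩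
    · exact S.ab (smul_left_cancel k (ka.trans e'.symm))
    have h1 := (S.fix_iff hy hu).1 (e' ▸ fx k b hk (S.Hb hy))
    have h2 := cj _ _ (mem_Zc.1 (inv_mem h1)).2 hk
    rw [S.comm (S.memH.2 ⟨by rw [mul_smul, ka, S.Ua (inv_mem hu)],
      by rw [mul_smul, ← e', inv_smul_smul]⟩) hy, mul_inv_cancel_right] at h2
    exact y2 (mul_eq_one_iff_eq_inv.2 h2)
  obtain ⟨g, rfl, hb⟩ := S.tr hj.symm
  have h1 : g⁻¹ * y * g ∈ H := S.memH.2 ⟨by rw [mul_smul, mul_smul, hx, inv_smul_smul], by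
    rw [mul_smul, mul_smul, hb, ← mul_smul y, hc, mul_smul, hx, ← hb, inv_smul_smul]⟩
  have h2 : g⁻¹ * j * g * s ∈ H := S.memH.2 ⟨by
    rw [mul_smul, mul_smul, mul_smul, S.sa, hb, ← mul_smul j, S.j2, one_smul, inv_smul_smul], by
    rw [mul_smul, mul_smul, mul_smul, S.sb, ← hb, inv_smul_smul]⟩
  have := key _ h1 (mul_left_cancel (a := g⁻¹ * j * g) (by
    calc _ = g⁻¹ * j * g * s * (g⁻¹ * y * g) * s := by group
      _ = g⁻¹ * (y * j) * g * (s * s) := by rw [S.comm h2 h1]; group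
      _ = _ := by rw [hc, S.s2]; group)) (g⁻¹ * k * g) (by
    calc _ = g⁻¹ * (k * y * k⁻¹) * g := by group
      _ = _ := by rw [hk]; group)
  calc y * y = g * (g⁻¹ * y * g * (g⁻¹ * y * g)) * g⁻¹ := by group
    _ = 1 := by rw [this]; simp

theorem norm {t : G} (ht : t ∈ H) (e : t ^ (p ^ n - 1) = 1) : ∃ h ∈ H, h ^ (p ^ n + 1) = t := by
  obtain ⟨g, hg, o, hg'⟩ := S.gen
  obtain ⟨k, rfl⟩ := hg' t ht
  have q := S.q3
  have e' := e
  rw [← pow_mul, ← orderOf_dvd_iff_pow_eq_one, o, mul_comm] at e'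
  obtain ⟨l, rfl⟩ := Nat.dvd_of_mul_dvd_mul_right (by omega) e'
  obtain ⟨c, -, hc⟩ := Nat.exists_mul_mod_eq_one_of_coprime S.cop (by omega)
  refine ⟨g ^ (l * c), pow_mem hg _, ?_⟩
  rw [S.dm, ← pow_one (g ^ (m * l)), ← hc, ← pow_eq_pow_mod _ e, ← pow_mul, ← pow_mul]
  congr 1; ring

variable [IsSimpleGroup G]

theorem all_conj (h4 : p ^ n % 4 = 1) {t : G} (h2 : t * t = 1) (h1 : t ≠ 1) : IsConj j t := by
  classical
  haveI := Fintype.ofFinite Ω
  have h3 : (Equiv.Perm.sign.comp (toPermHom G Ω)).ker = ⊤ := by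
    refine (MonoidHom.normal_ker _).eq_bot_or_eq_top.resolve_left fun e => S.ab ?_
    have i := (MonoidHom.ker_eq_bot_iff _).1 e
    have k : ∀ x : G, x ≠ 1 → Equiv.Perm.sign.comp (toPermHom G Ω) x = -1 := fun x hx =>
      (Int.units_eq_one_or _).resolve_left fun e => hx (i (e.trans (map_one _).symm))
    rw [← S.sa, ← i ((k j S.j1).trans (k s fun e => S.ab (by rw [← S.sa, e, one_smul])).symm),
      S.Ha S.jH]
  have h5 : Equiv.Perm.sign (toPermHom G Ω t) = 1 := MonoidHom.mem_ker.1 (h3.ge (mem_top t))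
  have h6 := card_modEq_fixedBy (Ω := Ω) Nat.prime_two (k := 1) (g := t) (by rw [pow_one, pow_two, h2])
  have h7 : (p ^ n) ^ 3 % 4 = 1 := by rw [Nat.pow_mod, h4]
  rw [Equiv.Perm.sign_of_pow_two_eq_one (by rw [← map_pow, pow_two, h2, map_one]),
    ← Nat.card_eq_fintype_card, ← Nat.card_eq_fintype_card, S.cΩ] at h5
  change _ ^ ((_ - (fixedBy Ω t).ncard) / 2) = _ at h5
  change _ ≡ (fixedBy Ω t).ncard [MOD 2] at h6
  rw [S.cΩ] at h6
  obtain ⟨x, hx, y, hy, ne⟩ := (Set.one_lt_ncard (s := fixedBy Ω t)).1 (by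
    unfold Nat.ModEq at h6
    by_contra! h
    rw [show (fixedBy Ω t).ncard = 0 by omega, Odd.neg_one_pow (Nat.odd_iff.2 (by omega))] at h5
    exact absurd h5 (by decide))
  obtain ⟨g, rfl, rfl⟩ := S.tr ne
  exact isConj_iff.2 ⟨g, (S.conj_j h2 h1 hx hy).symm⟩

theorem minus_pow (h4 : p ^ n % 4 = 1) {h : G} (hh : h ∈ S.Hm) : h ^ (p ^ n - 1) = 1 := by
  classical
  haveI := Fintype.ofFinite G
  obtain ⟨-, h1, h2⟩ := S.cZ'
  have h3 : Nat.card S.Hm ≤ (Finset.univ.filter fun t => IsConj j t ∧ t • a = b).card := by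
    rw [← Set.ncard_coe_finset]
    refine Set.ncard_le_ncard_of_injOn (s := S.Hm) (· * s) (fun t ht => ?_) (fun _ _ _ _ e =>
      mul_right_cancel e) (Finset.finite_toSet _)
    have e : (t * s) • a = b := by rw [mul_smul, S.sa, S.Hb ht.1]
    exact Finset.mem_filter.2 ⟨Finset.mem_univ _, S.all_conj h4 (by
      rw [mul_assoc, ← mul_assoc s, ht.2, mul_inv_cancel]) fun e' => S.ab (by
        rw [← e, e', one_smul]), e⟩
  rw [show p ^ n - 1 = Nat.card S.Hm by convert (by omega : p ^ n - 1 = Nat.card S.Hm)]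
  exact pow_card hh

theorem sig' : (∀ h ∈ H, s * h * s * h ^ p ^ n = 1) ∧ ∃ h ∈ H, h ^ (p ^ n + 1) = j := by
  obtain ⟨g, hg, o, hg'⟩ := S.gen
  obtain ⟨r, hr⟩ := S.odd
  have q := S.q3
  have e1 : ∀ k, s * g ^ k * s * (g ^ k) ^ p ^ n = (s * g * s * g ^ p ^ n) ^ k := fun k => by
    rw [S.sps, ← pow_mul, mul_comm k, pow_mul,
      Commute.mul_pow (S.comm (S.sH hg) (pow_mem hg _))]
  have e2 : g ^ (r * (p ^ n + 1)) = j := by
    refine (S.uniq (pow_mem hg _) ?_).resolve_left fun e => ?_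
    · rw [← S.pw hg, ← pow_add, ← pow_mul, hr, Nat.add_sub_cancel]; congr 1; ring
    · obtain ⟨c, hc⟩ := orderOf_dvd_of_pow_eq_one e
      rw [o, S.dm, hr, Nat.add_sub_cancel] at hc
      have := Nat.eq_of_mul_eq_mul_left (m := d) (k := 2 * c) (n := r * m) (Nat.mul_pos (by omega)
        (Nat.pos_of_ne_zero (by rintro rfl; simpa using S.dm))) (by linarith)
      have := S.hd
      omega
  have e3 : ∀ k, Odd k → j ^ k = j := by
    rintro _ ⟨k, rfl⟩
    rw [pow_succ, pow_mul, pow_two, S.j2, one_pow, one_mul]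
  refine ⟨fun h hh => ?_, _, pow_mem hg r, by rw [← pow_mul, e2]⟩
  obtain ⟨k, rfl⟩ := hg' h hh
  rw [e1, (S.e2 hg).resolve_right fun e => S.j1 ?_, one_pow]
  rcases Nat.even_or_odd r with hr' | hr'
  · have h1 := e1 (r + 1)
    have h2 : (g ^ (r + 1)) ^ (p ^ n - 1) = j := by
      rw [← e2, ← pow_mul, hr, Nat.add_sub_cancel]; congr 1; ring
    rw [e, e3 _ hr'.add_one, ← h2, ← Nat.sub_add_cancel (show 1 ≤ p ^ n by omega), pow_succ' _ (_ - 1),
      Nat.add_sub_cancel, ← mul_assoc, mul_eq_right] at h1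
    rw [← h2]
    exact S.minus_pow (by have := Nat.even_iff.1 hr'; omega)
      ⟨pow_mem hg _, eq_inv_of_mul_eq_one_left h1⟩
  · have h1 := e1 r
    rw [e, e3 _ hr', ← e2, pow_mul, pow_succ'] at h1
    rw [← e2, pow_mul]
    exact S.plus_pow (pow_mem hg _) (mul_right_cancel h1)

theorem sig {h : G} (hh : h ∈ H) : s * h * s = (h ^ p ^ n)⁻¹ :=
  eq_inv_of_mul_eq_one_left (S.sig'.1 h hh)

theorem ex1 : ∃ h ∈ H, h ^ (p ^ n + 1) = j ∧ ∀ z ∈ Zc U j, h * z * h⁻¹ = z⁻¹ := by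
  obtain ⟨h, hh, e⟩ := S.sig'.2
  refine ⟨h, hh, e, fun z hz => by_contra fun ne => S.j1 ?_⟩
  have h1 := S.ivZ S.jH h hh z hz
  have h2 := S.f5 (mul_mem hh hh) (by rw [Commute.mul_pow rfl, e, S.j2]) hz
  rw [← e]
  refine S.plus_pow hh (S.plus hh (u := z * (h * z * h⁻¹)) (mem_Zc.2 ⟨(mul_mem hz h1).1, ?_⟩)
    fun e => ne (eq_inv_of_mul_eq_one_right e))
  calc _ = h * z * h⁻¹ * (z * (h * h)) * h⁻¹ := by rw [S.central hz h1.1]; group
    _ = _ := by rw [h2]; group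

theorem nofix {z h u : G} (hz : z ∈ Zc U j) (hh : h ∈ H) (e : h * (s * h * s) = j) (hu : u ∈ U)
    (hZ : u ∉ Zc U j) : z • h • s • u • b ≠ u • b := fun e1 => by
  obtain ⟨k, hk, e2, e3⟩ := S.ex1
  have e4 : h * s * (h * s) = j := by rw [← e]; group
  have e5 : k * (h * s) * k⁻¹ = (h * s)⁻¹ := by
    calc _ = k * h * (s * k * s)⁻¹ * s := by simp [mul_assoc, S.si, S.s2]
      _ = h * j * s := by rw [S.sig hk, inv_inv, S.comm hk hh, mul_assoc h, ← pow_succ', e2]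
      _ = _ := by
        rw [eq_inv_iff_mul_eq_one, S.comm hh S.jH, mul_assoc j, mul_assoc j, e4, S.j2]
  have e6 := S.real_sq (y := z * (h * s)) (k := z * k) (x := u • b) (by
    rw [mul_assoc, mul_assoc, S.sj, ← mul_assoc h, S.comm hh S.jH, ← mul_assoc, ← mul_assoc,
      (mem_Zc.1 hz).2]; group) (by rw [mul_smul, mul_smul, e1]) (mt (S.fix_iff S.jH hu).1 hZ) (by
    calc _ = z * (k * z * k⁻¹) * (k * (h * s) * k⁻¹) * z⁻¹ := by group
      _ = _ := by rw [e3 z hz, e5]; group)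
  by_cases z1 : z = 1
  · rw [z1, one_mul, e4] at e6
    exact S.j1 e6
  · have := congrArg (· • a) e6
    simp only [mul_smul, S.sa, S.Hb hh, one_smul, S.fb hz.1 z1] at this
    rw [← S.cb hh, ← mul_smul] at this
    exact S.Ub (mul_mem hz.1 (S.HU hh (S.fU hz.1 z1))) this

end Su

end Cfsg.Agent.ON
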