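import Cfsg.Agent.ON.D

/-!
Groups of odd unitary type: the first coordinate.
-/

set_option autoImplicit false
set_option maxHeartbeats 400000
set_option linter.unusedSectionVars false

namespace Cfsg.Agent.ON

open MulAction Subgroup Cfsg.Agent.H4.Basic Cfsg.Agent.H4.Zass Cfsg.Agent.Rk1.Fc

variable {G Ω : Type*} [Group G] [MulAction G Ω]
variable {a b : Ω} {U H : Subgroup G} {p n d m : ℕ} {j s : G}
variable {E : Type*} [Field E] [Fintype E] {σ : E →+* E} {A lam : G → E}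

/-- Coordinates on `U / Z`. -/
structure Co (a b : Ω) (U H : Subgroup G) (p n d m : ℕ) (j s : G) (σ : E →+* E) (A lam : G → E) :
    Prop extends Su a b U H p n d m j s where
  cE : Fintype.card E = (p ^ n) ^ 2
  hσ : ∀ x, σ x = x ^ p ^ n
  A_mul : ∀ {u v}, u ∈ U → v ∈ U → A (u * v) = A u + A v
  A_zero : ∀ {u}, u ∈ U → (A u = 0 ↔ u ∈ Zc U j)
  A_surj : ∀ x, ∃ u ∈ U, A u = x
  A_conj : ∀ {h u}, h ∈ H → u ∈ U → A (h * u * h⁻¹) = lam h * A u

variable [Finite G] [Finite Ω] [FaithfulSMul G Ω]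

theorem Su.exists_co (S : Su a b U H p n d m j s) (cE : Fintype.card E = (p ^ n) ^ 2)
    (hσ : ∀ x, σ x = x ^ p ^ n) : ∃ A lam : G → E, Co a b U H p n d m j s σ A lam := by
  classical
  haveI : ((Zc U j).subgroupOf U).Normal := ⟨fun z hz g => by
    rwa [show g * z * g⁻¹ = z from Subtype.ext (mul_inv_eq_iff_eq_mul.2 (S.central hz g.2).symm)]⟩
  letI : CommGroup (U ⧸ (Zc U j).subgroupOf U) :=
    { (inferInstance : Group (U ⧸ (Zc U j).subgroupOf U)) with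
      mul_comm := by
        rintro ⟨u⟩ ⟨v⟩
        exact QuotientGroup.eq.2 (mem_subgroupOf.2 (by
          simpa [mul_assoc] using S.commU (inv_mem v.2) (inv_mem u.2))) }
  let V := Additive (U ⧸ (Zc U j).subgroupOf U)
  let π : U → V := fun u => Additive.ofMul (u : U ⧸ (Zc U j).subgroupOf U)
  have π0 : ∀ u, π u = 0 ↔ u.1 ∈ Zc U j := fun u => QuotientGroup.eq_one_iff u
  have πs : ∀ v, ∃ u, π u = v := fun v => QuotientGroup.mk_surjective v
  have πm : ∀ u v, π (u * v) = π u + π v := fun _ _ => rfl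
  let c : H → U →* U := fun h =>
    ((MulAut.conj h.1).toMonoidHom.comp U.subtype).codRestrict U fun u => S.HU h.2 u.2
  let e : H → AddMonoid.End V := fun h =>
    MonoidHom.toAdditive (QuotientGroup.map _ _ (c h) fun z hz => S.ivZ S.jH h h.2 z hz)
  have he : ∀ h u, e h (π u) = π (c h u) := fun _ _ => rfl
  obtain ⟨u₀, h₀, h₁⟩ := SetLike.exists_of_lt S.ZU
  obtain ⟨φ, -, hφ⟩ := H4.Coord.exists_field_coord (Set.range e) (by
      rintro _ ⟨h, rfl⟩ _ ⟨k, rfl⟩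
      refine AddMonoidHom.ext fun v => ?_
      obtain ⟨u, rfl⟩ := πs v
      show π (c h (c k u)) = π (c k (c h u))
      congr 1
      refine Subtype.ext (show h.1 * (k.1 * u.1 * k.1⁻¹) * h.1⁻¹ = k.1 * (h.1 * u.1 * h.1⁻¹) * k.1⁻¹ from ?_)
      calc _ = h.1 * k.1 * u * (h.1 * k.1)⁻¹ := by group
        _ = _ := by rw [S.comm h.2 k.2]; group) (fun W hW => by
      let W' : Subgroup G := ((AddSubgroup.toSubgroup' W).comap (QuotientGroup.mk' _)).map U.subtype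
      have hW' : ∀ u : U, u.1 ∈ W' ↔ π u ∈ W := fun u =>
        ⟨fun ⟨v, hv, e⟩ => Subtype.ext e ▸ hv, fun h => ⟨u, h, rfl⟩⟩
      by_cases h : W' ≤ Zc U j
      · refine .inl ((AddSubgroup.eq_bot_iff_forall _).2 fun v hv => ?_)
        obtain ⟨u, rfl⟩ := πs v
        exact (π0 u).2 (h ((hW' u).2 hv))
      · refine .inr ((AddSubgroup.eq_top_iff' _).2 fun v => ?_)
        obtain ⟨u, rfl⟩ := πs v
        refine (hW' u).1 ((S.irrU (map_subtype_le _) ?_ h fun z hz =>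
          (hW' ⟨z, hz.1⟩).2 ((π0 ⟨z, hz.1⟩).2 hz ▸ W.zero_mem)).ge u.2)
        rintro h hh _ ⟨u, hu, rfl⟩
        exact (hW' (c ⟨h, hh⟩ u)).2 (hW _ ⟨⟨h, hh⟩, rfl⟩ _ hu))
    (mt (π0 ⟨u₀, h₀⟩).1 h₁) E (by
      have := ((Zc U j).subgroupOf U).card_mul_index
      rw [Nat.card_congr (subgroupOfEquivOfLe inf_le_left).toEquiv, S.cZ, S.cU, pow_succ'] at this
      exact cE.trans (Nat.eq_of_mul_eq_mul_left (by have := S.q3; omega) this).symm)
  choose l hl using fun h : H => hφ (e h) ⟨h, rfl⟩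
  refine ⟨fun g => if h : g ∈ U then φ (π ⟨g, h⟩) else 0, fun g => if h : g ∈ H then l ⟨g, h⟩ else 0,
    S, cE, hσ, fun hu hv => ?_, fun hu => ?_, fun x => ?_, fun hh hu => ?_⟩
  · rw [dif_pos hu, dif_pos hv, dif_pos (mul_mem hu hv), ← map_add, ← πm]; rfl
  · rw [dif_pos hu, φ.map_eq_zero_iff, π0]
  · obtain ⟨u, hu⟩ := πs (φ.symm x)
    exact ⟨u, u.2, by rw [dif_pos u.2, hu, φ.apply_symm_apply]⟩
  · rw [dif_pos hu, dif_pos hh, dif_pos (S.HU hh hu), ← hl, he]; rfl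

namespace Co
variable (C : Co a b U H p n d m j s σ A lam)
include C

theorem σσ (x : E) : σ (σ x) = x := by
  rw [C.hσ, C.hσ, ← pow_mul, ← pow_two, ← C.cE, FiniteField.pow_card]

theorem two0 : (2 : E) ≠ 0 := Ring.two_ne_zero fun e => by
  have := FiniteField.even_card_iff_char_two.1 e
  have := Nat.odd_iff.1 (C.odd.pow (n := 2))
  have := C.cE
  omega

theorem cF [DecidableEq E] : (Finset.univ.filter fun x => σ x = x).card ≤ p ^ n := by
  have q : 1 < p ^ n := by have := C.q3; omega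
  rw [← FiniteField.X_pow_card_sub_X_natDegree_eq E q]
  refine le_trans (Finset.card_le_card fun x hx => ?_)
    ((Multiset.toFinset_card_le _).trans (Polynomial.card_roots' _))
  rw [Multiset.mem_toFinset, Polynomial.mem_roots (FiniteField.X_pow_card_sub_X_ne_zero E q)]
  simpa [C.hσ, sub_eq_zero] using hx

theorem A_Z {z : G} (hz : z ∈ Zc U j) : A z = 0 := (C.A_zero hz.1).2 hz

theorem A_inv {u : G} (hu : u ∈ U) : A u⁻¹ = -A u :=
  eq_neg_of_add_eq_zero_left (by rw [← C.A_mul (inv_mem hu) hu, inv_mul_cancel, C.A_Z (one_mem _)])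

theorem A_eq {u v : G} (hu : u ∈ U) (hv : v ∈ U) (e : A u = A v) : u * v⁻¹ ∈ Zc U j :=
  (C.A_zero (mul_mem hu (inv_mem hv))).1 (by rw [C.A_mul hu (inv_mem hv), C.A_inv hv, e, add_neg_cancel])

theorem ne1 {u : G} (h : A u ≠ 0) : u ≠ 1 := fun e => h (C.A_Z (e ▸ one_mem _))

theorem lam_mul {h k : G} (hh : h ∈ H) (hk : k ∈ H) : lam (h * k) = lam h * lam k := by
  obtain ⟨u, hu, e⟩ := C.A_surj 1
  rw [← mul_one (lam (h * k)), ← mul_one (lam k), ← e, ← C.A_conj (mul_mem hh hk) hu,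
    ← C.A_conj hk hu, ← C.A_conj hh (C.HU hk hu)]
  congr 1; group

theorem lam_one : lam 1 = 1 := by
  obtain ⟨u, hu, e⟩ := C.A_surj 1
  simpa [e] using (C.A_conj (one_mem _) hu).symm

theorem lam_inv {h : G} (hh : h ∈ H) : lam h⁻¹ = (lam h)⁻¹ :=
  eq_inv_of_mul_eq_one_left (by rw [← C.lam_mul (inv_mem hh) hh, inv_mul_cancel, C.lam_one])

theorem lam0 {h : G} (hh : h ∈ H) : lam h ≠ 0 :=
  left_ne_zero_of_mul_eq_one (by rw [← C.lam_mul hh (inv_mem hh), mul_inv_cancel, C.lam_one])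

theorem lam_pow {h : G} (hh : h ∈ H) (k : ℕ) : lam (h ^ k) = lam h ^ k := by
  induction k with
  | zero => simp [C.lam_one]
  | succ k ih => rw [pow_succ, C.lam_mul (pow_mem hh k) hh, ih, pow_succ]

theorem lam_j : lam j = -1 := by
  refine (mul_self_eq_one_iff.1 (by rw [← C.lam_mul C.jH C.jH, C.j2, C.lam_one])).resolve_left
    fun e => ?_
  obtain ⟨u, hu, e1⟩ := C.A_surj 1
  have h1 := C.A_eq (C.HU C.jH hu) hu (by rw [C.A_conj C.jH hu, e, one_mul])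
  have h2 := C.Uodd h1.1 (by
    calc _ = j * u * j⁻¹ * u⁻¹ * j * (u * j⁻¹ * u⁻¹) := by group
      _ = j * (j * u * j⁻¹) * (j⁻¹ * u⁻¹) := by rw [(mem_Zc.1 h1).2]; group
      _ = 1 := by simp [C.ji, mul_assoc, C.jj])
  rw [mul_inv_eq_one, mul_inv_eq_iff_eq_mul] at h2
  exact one_ne_zero (e1.symm.trans (C.A_Z (mem_Zc.2 ⟨hu, h2.symm⟩)))

theorem A_j {u : G} (hu : u ∈ U) : A (j * u * j) = -A u := by
  simpa [C.ji, C.lam_j] using C.A_conj C.jH hu

theorem ex_v (x : E) : ∃ v ∈ U, A v = x ∧ j * v * j = v⁻¹ := by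
  obtain ⟨u, hu, e⟩ := C.A_surj (x / 2)
  refine ⟨u * (j * u * j)⁻¹, mul_mem hu (inv_mem (C.jU hu)), ?_, by simp [mul_assoc, C.ji, C.jj, C.j2]⟩
  rw [C.A_mul hu (inv_mem (C.jU hu)), C.A_inv (C.jU hu), C.A_j hu, e, neg_neg, ← add_div, ← two_mul,
    mul_div_cancel_left₀ _ C.two0]

/-- the elements inverted by `j` -/
noncomputable def v (x : E) : G := (C.ex_v x).choose

theorem vU (x : E) : C.v x ∈ U := (C.ex_v x).choose_spec.1

theorem Av (x : E) : A (C.v x) = x := (C.ex_v x).choose_spec.2.1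

theorem jv (x : E) : j * C.v x * j = (C.v x)⁻¹ := (C.ex_v x).choose_spec.2.2

theorem v1 {x : E} (h : x ≠ 0) : C.v x ≠ 1 := C.ne1 (by rwa [C.Av])

theorem eq_v {u : G} (hu : u ∈ U) (e : j * u * j = u⁻¹) : u = C.v (A u) := by
  have h1 := C.A_eq hu (C.vU _) (C.Av _).symm
  refine mul_inv_eq_one.1 (C.Uodd h1.1 ?_)
  have h2 : u * (C.v (A u))⁻¹ = u⁻¹ * C.v (A u) := by
    calc _ = j * (u * (C.v (A u))⁻¹ * j) := by rw [(mem_Zc.1 h1).2, C.jj]
      _ = j * u * j * (j * C.v (A u) * j)⁻¹ := by simp [mul_assoc, C.ji, C.jj]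
      _ = _ := by rw [e, C.jv, inv_inv]
  calc _ = u * (u * (C.v (A u))⁻¹ * (C.v (A u))⁻¹) := by
        rw [C.central h1 (inv_mem (C.vU _))]; group
    _ = 1 := by rw [h2]; group

theorem v_conj {h : G} (hh : h ∈ H) (x : E) : h * C.v x * h⁻¹ = C.v (lam h * x) := by
  rw [C.eq_v (C.HU hh (C.vU x)) (by
    calc _ = j * h * C.v x * (h⁻¹ * j) := by group
      _ = h * (j * C.v x * j) * h⁻¹ := by rw [C.comm C.jH hh, C.comm (inv_mem hh) C.jH]; group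
      _ = _ := by rw [C.jv]; group), C.A_conj hh (C.vU x), C.Av]

theorem v_inv (x : E) : (C.v x)⁻¹ = C.v (-x) := by
  simpa [C.ji, C.jv, C.lam_j] using C.v_conj C.jH x

theorem lam_inj {h k : G} (hh : h ∈ H) (hk : k ∈ H) (e : lam h = lam k) : h = k := by
  have h1 := mul_mem (inv_mem hk) hh
  have := C.v_conj h1 1
  rw [C.lam_mul (inv_mem hk) hh, C.lam_inv hk, e, inv_mul_cancel₀ (C.lam0 hk), one_mul,
    mul_inv_eq_iff_eq_mul] at this
  exact (inv_mul_eq_one.1 (C.semi h1 (mem_Zc.2 ⟨C.vU 1, this.symm⟩) fun e =>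
    one_ne_zero ((C.Av 1).symm.trans (C.A_Z e)))).symm

theorem lam_surj {x : E} (h0 : x ≠ 0) (e : σ x = x ∨ σ x = -x) : ∃ h ∈ H, lam h = x := by
  let φ : H →* Eˣ := MonoidHom.toHomUnits
    ⟨⟨fun h => lam h, C.lam_one⟩, fun h k => C.lam_mul h.2 k.2⟩
  obtain ⟨h, hh⟩ := mem_of_pow φ.range (h := Units.mk0 x h0) (by
    rw [← Nat.card_congr (MonoidHom.ofInjective (f := φ) fun h k e =>
      Subtype.ext (C.lam_inj h.2 k.2 (congrArg Units.val e))).toEquiv, C.cH]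
    obtain ⟨r, hr⟩ := Nat.dvd_of_mod_eq_zero C.m2
    refine Units.ext ?_
    have q := C.q3
    have : (x ^ (p ^ n - 1)) ^ 2 = 1 := by
      apply mul_right_cancel₀ (pow_ne_zero 2 h0)
      rw [← mul_pow, ← pow_succ, Nat.sub_add_cancel (by omega), ← C.hσ]
      rcases e with e | e <;> rw [e] <;> ring
    simp [hr, pow_mul, this])
  exact ⟨h, h.2, congrArg Units.val hh⟩

theorem norm' {t : E} (h0 : t ≠ 0) (e : σ t = t) : ∃ h ∈ H, lam h * σ (lam h) = t := by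
  obtain ⟨k, hk, rfl⟩ := C.lam_surj h0 (.inl e)
  obtain ⟨h, hh, rfl⟩ := C.norm hk (C.lam_inj (pow_mem hk _) (one_mem _) (by
    apply mul_right_cancel₀ h0
    rw [C.lam_pow hk, ← pow_succ, Nat.sub_add_cancel (by have := C.q3; omega), ← C.hσ, e, C.lam_one,
      one_mul]))
  exact ⟨h, hh, by rw [C.lam_pow hh, pow_succ', C.hσ]⟩

theorem fZ {z : G} (hz : z ∈ Zc U j) (h1 : z ≠ 1) : C.f z ∈ Zc U j := by
  have := C.f_conj C.jH hz.1 h1
  rw [← (mem_Zc.1 hz).2, mul_inv_cancel_right, C.sj, mul_assoc j, C.s2, mul_one,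
    eq_mul_inv_iff_mul_eq] at this
  exact mem_Zc.2 ⟨C.fU hz.1 h1, this⟩

theorem Af {x : G} (hx : x ∈ U) (h : A x ≠ 0) : A (C.f x) ≠ 0 := fun e => h (by
  rw [← C.ff hx (C.ne1 h)]
  exact C.A_Z (C.fZ ((C.A_zero (C.fU hx (C.ne1 h))).1 e) (C.f1 hx (C.ne1 h))))

variable [IsSimpleGroup G]

theorem lam_s {h : G} (hh : h ∈ H) : lam (s * h * s) = (σ (lam h))⁻¹ := by
  rw [C.sig hh, C.lam_inv (pow_mem hh _), C.lam_pow hh, C.hσ]

theorem Af_conj {h x : G} (hh : h ∈ H) (hx : x ∈ U) (h1 : x ≠ 1) :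
    A (C.f (h * x * h⁻¹)) = (σ (lam h))⁻¹ * A (C.f x) := by
  rw [C.f_conj hh hx h1, C.A_conj (C.sH hh) (C.fU hx h1), C.lam_s hh]

theorem nofix' {z h u : G} (hz : z ∈ Zc U j) (hh : h ∈ H) (e : σ (lam h) = -lam h) (hu : u ∈ U)
    (hZ : A u ≠ 0) : z • h • s • u • b ≠ u • b :=
  C.nofix hz hh (C.lam_inj (mul_mem hh (C.sH hh)) C.jH (by
    rw [C.lam_mul hh (C.sH hh), C.lam_s hh, e, C.lam_j, inv_neg, mul_neg, mul_inv_cancel₀ (C.lam0 hh)]))
    hu fun e => hZ (C.A_Z e)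

theorem tr_Z {z : G} (hz : z ∈ Zc U j) (h1 : z ≠ 1) : ∃ h ∈ H, ∃ e ∈ Zc U j,
    s * z * s = C.f z * h * s * e ∧ σ (lam h) = -lam h := by
  obtain ⟨h, hh, e, he, E1⟩ := C.ex_tr hz.1 h1
  have g1 := C.fU hz.1 h1
  obtain ⟨k, hk, e2, e3⟩ := C.ex1
  have k1 := C.sH hk
  have h2 := (C.tr_uniq g1 hh he (C.jU g1) hh (C.jU he) (by
    calc _ = s * (j * (z * j)) * s := by rw [(mem_Zc.1 hz).2, C.jj, E1]
      _ = j * (s * z * s) * j := by rw [← mul_assoc, C.sj, mul_assoc j (s * z * s), mul_assoc (s * z), C.sj]; group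
      _ = j * C.f z * j * (j * h) * s * e * j := by rw [E1]; simp [mul_assoc, C.jj]
      _ = _ := by rw [C.comm C.jH hh, mul_assoc _ _ s, mul_assoc h, ← C.sj]; group)).2.2
  have h3 := (C.tr_uniq (inv_mem he) (C.sH (inv_mem hh)) (inv_mem g1) (C.HU k1 g1)
    (mul_mem (mul_mem k1 hh) (inv_mem hk)) (C.HU k1 he) (by
    calc _ = (s * z * s)⁻¹ := by rw [E1]; simp [mul_assoc, C.si, C.ss]
      _ = s * (k * z * k⁻¹) * s := by rw [e3 z hz, C.sis]
      _ = s * k * s * (s * z * s) * (s * k * s)⁻¹ := by simp [mul_assoc, C.ss, C.si]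
      _ = _ := by rw [E1]; simp [mul_assoc, C.ss, C.si])).2.1
  refine ⟨h, hh, e, mem_Zc.2 ⟨he, by rw [← mul_right_inj j, ← mul_assoc, ← h2, C.jj]⟩, E1, ?_⟩
  have h4 := congrArg lam h3
  have h5 := congrArg lam e2
  rw [C.lam_pow hk, pow_succ, ← C.hσ, C.lam_j] at h5
  rw [C.lam_s (inv_mem hh), C.lam_mul (mul_mem k1 hh) (inv_mem hk), C.lam_mul k1 hh, C.lam_s hk,
    C.lam_inv hh, C.lam_inv hk, map_inv₀, inv_inv] at h4
  rw [h4, mul_right_comm, ← mul_inv, h5]; simp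

theorem e1a {x : G} (hx : x ∈ U) (h : A x ≠ 0) : σ (A (C.f x) / A x) ≠ -(A (C.f x) / A x) := fun e => by
  obtain ⟨k, hk, e1⟩ := C.lam_surj (div_ne_zero (C.Af hx h) h) (.inr e)
  have h1 := C.A_eq (C.HU hk hx) (C.fU hx (C.ne1 h)) (by rw [C.A_conj hk hx, e1, div_mul_cancel₀ _ h])
  refine C.nofix' (C.ivZ C.jH _ (inv_mem hk) _ h1) (inv_mem hk) (by
    rw [C.lam_inv hk, map_inv₀, e1, e, inv_neg]) hx h ?_
  rw [C.fb hx (C.ne1 h), ← mul_smul, ← mul_smul]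
  calc _ = (x * k⁻¹) • b := by congr 1; group
    _ = _ := by rw [mul_smul, C.Hb (inv_mem hk)]

theorem e1b {x y : G} (hx : x ∈ U) (hy : y ∈ U) (h : A x ≠ 0) (e : A y = A x) {t : E} (ht : σ t = t)
    (e' : A (C.f y) = t * A (C.f x)) : y = x := by
  have hy0 : A y ≠ 0 := e ▸ h
  have t0 : t ≠ 0 := left_ne_zero_of_mul (e' ▸ C.Af hy hy0)
  obtain ⟨k, hk, e1⟩ := C.lam_surj (inv_ne_zero t0) (.inl (by rw [map_inv₀, ht]))
  have x' := C.HU hk hx
  have x1 : k * x * k⁻¹ ≠ 1 := by simpa using C.ne1 h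
  have h1 := C.A_eq (C.fU hy (C.ne1 hy0)) (C.fU x' x1) (by
    rw [C.Af_conj hk hx (C.ne1 h), e1, map_inv₀, inv_inv, ht, e'])
  have h2 := C.A_eq hx hy e.symm
  by_cases z1 : C.f y * (C.f (k * x * k⁻¹))⁻¹ = 1
  · have h3 := congrArg C.f (mul_inv_eq_one.1 z1)
    rw [C.ff hy (C.ne1 hy0), C.ff x' x1] at h3
    rw [h3, C.A_conj hk hx, mul_eq_right₀ h, ← C.lam_one] at e
    simpa [C.lam_inj hk (one_mem _) e] using h3
  obtain ⟨l, hl, r, hr, E1, e2⟩ := C.tr_Z h1 z1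
  have h3 : y • b = C.f (C.f y * (C.f (k * x * k⁻¹))⁻¹) • l • s • (r * (k * x * k⁻¹)) • b := by
    rw [mul_smul r, ← mul_smul s, ← mul_smul l, ← mul_smul (C.f _), ← mul_assoc, ← mul_assoc, ← E1,
      mul_smul, C.fb x' x1, mul_smul, ← mul_smul _ (C.f _), inv_mul_cancel_right,
      ← C.fb hy (C.ne1 hy0), C.sss]
  refine absurd ?_ (C.nofix' (mul_mem hr (C.ivZ C.jH _ hk _ (mul_mem h2 (C.fZ h1 z1))))
    (mul_mem hk hl) ?_ (mul_mem hr.1 x') ?_)
  · rw [mul_smul k, mul_smul r, mul_smul _ k⁻¹, inv_smul_smul, mul_smul k, mul_smul (x * y⁻¹), ← h3,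
      mul_smul x, inv_smul_smul, mul_smul r, C.cb hk]
  · rw [C.lam_mul hk hl, map_mul, e2, e1, map_inv₀, ht, mul_neg]
  · rw [C.A_mul hr.1 x', C.A_Z hr, zero_add, C.A_conj hk hx]
    exact mul_ne_zero (C.lam0 hk) h

end Co

end Cfsg.Agent.ON
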