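import Cfsg.Agent.ON.E

/-!
Groups of odd unitary type: the blocks are circles.
-/

set_option autoImplicit false
set_option maxHeartbeats 400000
set_option linter.unusedSectionVars false

namespace Cfsg.Agent.ON

open MulAction Subgroup Cfsg.Agent.H4.Basic Cfsg.Agent.H4.Zass Cfsg.Agent.Rk1.Fc

variable {G Ω : Type*} [Group G] [MulAction G Ω]
variable {a b : Ω} {U H : Subgroup G} {p n d m : ℕ} {j s : G}
variable {E : Type*} [Field E] [Fintype E] {σ : E →+* E} {A lam : G → E}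
variable [Finite G] [Finite Ω] [FaithfulSMul G Ω] [IsSimpleGroup G]

namespace Co
variable (C : Co a b U H p n d m j s σ A lam)
include C

/-- the action of `s` on the inverted elements -/
noncomputable def F (x : E) : E := A (C.f (C.v x))

theorem F0 {x : E} (h : x ≠ 0) : C.F x ≠ 0 := C.Af (C.vU x) (by rwa [C.Av])

theorem F_lam {h : G} (hh : h ∈ H) {x : E} (h0 : x ≠ 0) : C.F (lam h * x) = (σ (lam h))⁻¹ * C.F x := by
  rw [F, ← C.v_conj hh, C.Af_conj hh (C.vU x) (C.v1 h0), F]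

theorem F_mul {t x : E} (ht : σ t = t) (t0 : t ≠ 0) (h0 : x ≠ 0) : C.F (t * x) = t⁻¹ * C.F x := by
  obtain ⟨h, hh, rfl⟩ := C.lam_surj t0 (.inl ht)
  rw [C.F_lam hh h0, ht]

theorem blk {ω : E} (h0 : ω ≠ 0) : ∃ h ∈ H, σ (lam h) = lam h ∧ ∀ y ∈ U, (h • s • y • b = y • b ↔
    C.f (C.v (2 * ω)) * y = 1 ∨ A (C.f (C.f (C.v (2 * ω)) * y)) = ω) := by
  have wU := C.vU ω
  have jw := C.jv ω
  have e0 : C.v ω * C.v ω = C.v (2 * ω) := by
    rw [C.eq_v (mul_mem wU wU) (by rw [mul_inv_rev, ← jw]; simp [mul_assoc, C.jj]), C.A_mul wU wU,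
      C.Av, two_mul]
  have w1 : C.v ω * C.v ω ≠ 1 := e0 ▸ C.v1 (mul_ne_zero C.two0 h0)
  rw [← e0]
  obtain ⟨h, hh, e, he, E1⟩ := C.ex_tr (mul_mem wU wU) w1
  have gU := C.fU (mul_mem wU wU) w1
  have Aw := C.Av ω
  generalize C.f (C.v ω * C.v ω) = g at *
  generalize C.v ω = w at *
  obtain ⟨-, h1, h2⟩ := C.tr_uniq (C.jU gU) hh (C.jU he) (inv_mem he) (C.sH (inv_mem hh)) (inv_mem gU) (by
    calc _ = j * g * (j * h) * (s * j) * e * j := by group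
      _ = j * (s * (w * w) * s) * j := by
        rw [C.comm C.jH hh, C.sj, E1]; simp [mul_assoc, C.jj]
      _ = s * (j * w * j * (j * w * j)) * s := by
        simp only [mul_assoc, C.jj]; rw [C.sj, ← mul_assoc j s, ← C.sj, mul_assoc s j]
      _ = (s * (w * w) * s)⁻¹ := by rw [jw]; simp [mul_assoc, C.si]
      _ = _ := by rw [E1]; simp [mul_assoc, C.si, C.ss])
  have h3 : h * j * s = g⁻¹ * s * w * j * w⁻¹ * s * g := by
    calc _ = g⁻¹ * (g * h * (j * s) * (j * e * j)) * g := by rw [h2]; group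
      _ = g⁻¹ * (s * (w * w) * (s * j)) * g := by
        rw [← C.sj, ← mul_assoc (s * (w * w)) s j, E1]; simp [mul_assoc, C.jj]
      _ = _ := by rw [C.sj, ← jw]; simp [mul_assoc, C.jj]
  refine ⟨h * j, mul_mem hh C.jH, ?_, fun y hy => ?_⟩
  · have := congrArg lam h1
    rw [C.lam_s (inv_mem hh), C.lam_inv hh, map_inv₀, inv_inv] at this
    rw [C.lam_mul hh C.jH, C.lam_j, map_mul, ← this]; simp
  rw [← mul_smul _ s, h3]
  simp only [mul_smul]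
  rw [inv_smul_eq_iff, ← eq_inv_smul_iff, C.si, ← eq_inv_smul_iff, ← mul_smul g]
  by_cases g1 : g * y = 1
  · simp [g1, C.sb, C.Ua (inv_mem wU), C.Ha C.jH]
  have := C.fU (mul_mem gU hy) g1
  rw [C.fb (mul_mem gU hy) g1, ← mul_smul w⁻¹, C.fix_iff C.jH (mul_mem (inv_mem wU) this),
    ← C.A_zero (mul_mem (inv_mem wU) this), C.A_mul (inv_mem wU) this, C.A_inv wU, Aw,
    neg_add_eq_zero, eq_comm, or_iff_right g1]

theorem FF {ω : E} (h0 : ω ≠ 0) : C.F (C.F ω) = ω := by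
  obtain ⟨h, hh, -, e⟩ := C.blk h0
  have h2 := mul_ne_zero C.two0 h0
  have gU := C.fU (C.vU _) (C.v1 h2)
  have g0 : A (C.f (C.v (2 * ω))) ≠ 0 := C.F0 h2
  have h1 := (e _ (inv_mem gU)).2 (.inl (mul_inv_cancel _))
  have h3 : A (C.f (C.v (2 * ω)) * (j * (C.f (C.v (2 * ω)))⁻¹ * j)) = 2 * C.F (2 * ω) := by
    rw [C.A_mul gU (C.jU (inv_mem gU)), C.A_j (inv_mem gU), C.A_inv gU, neg_neg, two_mul (C.F _), F]
  have h4 := ((e _ (C.jU (inv_mem gU))).1 (by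
    rw [mul_smul, mul_smul, C.Hb C.jH, ← mul_smul s, C.sj, mul_smul, ← mul_smul h, C.comm hh C.jH,
      mul_smul, h1])).resolve_left (C.ne1 (h3 ▸ mul_ne_zero C.two0 g0))
  rwa [C.eq_v (mul_mem gU (C.jU (inv_mem gU))) (by simp [mul_assoc, C.jj, C.j2, C.ji]), h3,
    C.F_mul (map_ofNat σ 2) C.two0 h0, mul_inv_cancel_left₀ C.two0] at h4

theorem fv {x : E} (h0 : x ≠ 0) : C.f (C.v x) = C.v (C.F x) :=
  C.e1b (C.vU _) (C.fU (C.vU x) (C.v1 h0)) (by rw [C.Av]; exact C.F0 h0) (C.Av _).symm (map_one σ)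
    (by rw [C.ff (C.vU x) (C.v1 h0), C.Av, one_mul]; exact (C.FF h0).symm)

theorem F_neg {x : E} (h0 : x ≠ 0) : C.F (-x) = -C.F x := by
  simpa using C.F_mul (t := -1) (by simp) (by simp) h0

theorem blk1 {γ : E} (h0 : γ ≠ 0) : ∃ h ∈ H, σ (lam h) = lam h ∧ lam h * C.F γ = γ ∧
    ∀ y ∈ U, (h • s • y • b = y • b ↔ y = C.v γ ∨ A (C.f (C.v (-γ) * y)) = -C.F γ / 2) := by
  have h1 := neg_ne_zero.2 (C.F0 h0)
  obtain ⟨h, hh, e1, e⟩ := C.blk (div_ne_zero h1 C.two0)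
  rw [mul_div_cancel₀ _ C.two0, C.fv h1, C.F_neg (C.F0 h0), C.FF h0] at e
  simp only [← C.v_inv, inv_mul_eq_one] at e ⊢
  refine ⟨h, hh, e1, ?_, fun y hy => by rw [e y hy, eq_comm]⟩
  have := (e _ (C.vU γ)).2 (.inl rfl)
  rw [C.fb (C.vU γ) (C.v1 h0), ← C.cb hh] at this
  rw [F, ← C.A_conj hh (C.fU (C.vU γ) (C.v1 h0)),
    C.inj (C.HU hh (C.fU (C.vU γ) (C.v1 h0))) (C.vU γ) this, C.Av]

theorem blk2 {γ : E} (h0 : γ ≠ 0) : ∃ t, t ≠ 0 ∧ σ t = t ∧ t * C.F γ = γ ∧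
    (∀ δ, δ ≠ 0 → t * C.F δ = δ → δ ≠ γ → A (C.f (C.v (-γ) * C.v δ)) = -C.F γ / 2) ∧
    ∀ η ∈ U, A η = -C.F γ / 2 → ∃ δ, δ ≠ 0 ∧ t * C.F δ = δ ∧ δ ≠ γ ∧ η = C.f (C.v (-γ) * C.v δ) := by
  obtain ⟨h, hh, e1, e2, e⟩ := C.blk1 h0
  refine ⟨lam h, C.lam0 hh, e1, e2, fun δ d0 hd ne => ?_, fun η hη e3 => ?_⟩
  · refine ((e _ (C.vU δ)).1 ?_).resolve_left fun e => ne (by rw [← C.Av δ, e, C.Av])
    rw [C.fb (C.vU δ) (C.v1 d0), ← C.cb hh, C.fv d0, C.v_conj hh, hd]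
  have η0 : A η ≠ 0 := e3 ▸ div_ne_zero (neg_ne_zero.2 (C.F0 h0)) C.two0
  have η1 := C.ne1 η0
  have yU := mul_mem (C.vU γ) (C.fU hη η1)
  have h1 : C.f (C.v (-γ) * (C.v γ * C.f η)) = η := by
    rw [← C.v_inv, inv_mul_cancel_left, C.ff hη η1]
  have h2 := (e _ yU).2 (.inr (by rw [h1, e3]))
  have y1 : C.v γ * C.f η ≠ C.v γ := fun e => C.f1 hη η1 (by simpa using e)
  generalize C.v γ * C.f η = y at *
  have y0 : A y ≠ 0 := fun e => C.fix_off (t := h * s) (C.lam_inj (h := h * (s * h * s))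
      (mul_mem hh (C.sH hh)) (one_mem _) (by
        rw [C.lam_mul hh (C.sH hh), C.lam_s hh, e1, mul_inv_cancel₀ (C.lam0 hh), C.lam_one]) ▸ by group)
    (by rw [mul_assoc, C.sj, ← mul_assoc, C.comm hh C.jH, mul_assoc])
    (by rw [mul_smul, C.sa, C.Hb hh]; exact C.ab.symm)
    ((C.fix_iff C.jH yU).2 ((C.A_zero yU).1 e)) (by rw [mul_smul, h2])
  have fy := C.fU yU (C.ne1 y0)
  rw [C.fb yU (C.ne1 y0), ← C.cb hh] at h2
  have h3 := congrArg A (C.inj (C.HU hh fy) yU h2)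
  rw [C.A_conj hh fy] at h3
  obtain ⟨k, hk, k1, k2, -⟩ := C.blk1 y0
  have h4 : y = C.v (A y) := C.e1b (C.vU _) yU (by rwa [C.Av]) (C.Av _).symm (t := lam k / lam h)
    (by rw [map_div₀, e1, k1]) (by
      rw [div_mul_eq_mul_div, eq_div_iff (C.lam0 hh), mul_comm, h3]; exact k2.symm)
  exact ⟨A y, y0, by rw [F, ← h4, h3], fun e => y1 (by rw [h4, e]), by rw [← h4, h1]⟩

theorem A_vv (γ δ : E) : A (C.v (-γ) * C.v δ) = δ - γ := by
  rw [C.A_mul (C.vU _) (C.vU _), C.Av, C.Av, neg_add_eq_sub]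

theorem ex_eps : ∃ ε : E, ε ≠ 0 ∧ σ ε = -ε := by
  obtain ⟨z, hz, z1⟩ := C.exZ
  obtain ⟨h, hh, -, -, -, e⟩ := C.tr_Z hz z1
  exact ⟨_, C.lam0 hh, e⟩

theorem circ {t γ δ : E} (g0 : γ ≠ 0) (d0 : δ ≠ 0) (hγ : t * C.F γ = γ) (hδ : t * C.F δ = δ) :
    δ * σ δ = γ * σ γ := by
  classical
  obtain ⟨ε, e0, e1⟩ := C.ex_eps
  have key : ∀ γ, γ ≠ 0 → t * C.F γ = γ → t ≠ 0 ∧ σ t = t ∧
      (∀ δ, δ ≠ 0 → t * C.F δ = δ → δ ≠ γ → A (C.f (C.v (-γ) * C.v δ)) = -C.F γ / 2) ∧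
      ∀ η ∈ U, A η = -C.F γ / 2 → ∃ δ, δ ≠ 0 ∧ t * C.F δ = δ ∧ δ ≠ γ ∧
        η = C.f (C.v (-γ) * C.v δ) := fun γ g0 hγ => by
    obtain ⟨t', h1, h2, h3, h4⟩ := C.blk2 g0
    obtain rfl := mul_right_cancel₀ (C.F0 g0) (h3.trans hγ.symm)
    exact ⟨h1, h2, h4⟩
  have vU : ∀ γ δ, C.v (-γ) * C.v δ ∈ U := fun γ δ => mul_mem (C.vU _) (C.vU _)
  have v1 : ∀ γ δ, δ ≠ γ → C.v (-γ) * C.v δ ≠ 1 := fun γ δ h =>
    C.ne1 (by rw [C.A_vv]; exact sub_ne_zero.2 h)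
  have ω0 : ∀ γ, γ ≠ 0 → -C.F γ / 2 ≠ 0 := fun γ h => div_ne_zero (neg_ne_zero.2 (C.F0 h)) C.two0
  obtain ⟨t0, ht, -, k2⟩ := key γ g0 hγ
  refine (segre C.σσ C.two0 e0 e1 (O := Finset.univ.filter fun δ => δ ≠ 0 ∧ t * C.F δ = δ) ?_ ?_ ?_ g0
    (by simp [*]) (by simp [C.F_neg, *]) (by simp [*])).elim (fun e => ?_) id
  · simp only [Finset.mem_filter, Finset.mem_univ, true_and]
    intro γ hγ δ hδ δ' hδ' n1 n2 e
    obtain ⟨-, -, k1, -⟩ := key γ hγ.1 hγ.2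
    have s0 := sub_ne_zero.2 n1
    have := congrArg (fun x => A (C.f x)) (C.e1b (C.fU (vU γ δ) (v1 γ δ n1)) (C.fU (vU γ δ') (v1 γ δ' n2))
      (k1 δ hδ.1 hδ.2 n1 ▸ ω0 γ hγ.1) ((k1 δ' hδ'.1 hδ'.2 n2).trans (k1 δ hδ.1 hδ.2 n1).symm)
      (t := (δ' - γ) / (δ - γ)) (by
        rw [map_div₀, div_eq_div_iff ((map_ne_zero σ).2 s0) s0]
        rw [al] at e; linear_combination e) (by
        rw [C.ff (vU γ δ) (v1 γ δ n1), C.ff (vU γ δ') (v1 γ δ' n2), C.A_vv, C.A_vv,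
          div_mul_cancel₀ _ s0]))
    simp only [C.ff (vU γ δ) (v1 γ δ n1), C.ff (vU γ δ') (v1 γ δ' n2), C.A_vv] at this
    exact (sub_left_injective this).symm
  · simp only [Finset.mem_filter, Finset.mem_univ, true_and]
    intro γ hγ δ hδ n1 e
    obtain ⟨-, -, k1, -⟩ := key γ hγ.1 hγ.2
    refine C.e1a (C.fU (vU γ δ) (v1 γ δ n1)) (k1 δ hδ.1 hδ.2 n1 ▸ ω0 γ hγ.1) ?_
    have f0 := C.F0 hγ.1
    have f1 := (map_ne_zero σ).2 f0
    have h2 := congrArg σ hγ.2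
    rw [map_mul, ht] at h2
    rw [C.ff (vU γ δ) (v1 γ δ n1), C.A_vv, k1 δ hδ.1 hδ.2 n1, map_div₀, map_div₀, map_neg, map_ofNat]
    rw [← h2, ← hγ.2] at e
    have := C.two0
    field_simp
    apply mul_left_cancel₀ t0
    rw [hγ.2] at e
    linear_combination -e - σ (δ - γ) * hγ.2
  · refine (Nat.succ_le_succ C.cF).trans ?_
    rw [← Finset.card_erase_add_one (a := γ) (by simp [*]), ← C.cZ, ← Set.ncard_coe_finset]
    choose δ h1 h2 h3 h4 using fun z : Zc U j => k2 (z * C.v (-C.F γ / 2)) (mul_mem z.2.1 (C.vU _))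
      (by rw [C.A_mul z.2.1 (C.vU _), C.A_Z z.2, C.Av, zero_add])
    refine Nat.succ_le_succ (Nat.card_le_card_of_injective (β := ↥(_ : Set E))
      (fun z => ⟨δ z, by simp [*]⟩) fun z z' e => Subtype.ext (mul_right_cancel (b := C.v (-C.F γ / 2)) ?_))
    rw [h4, h4, show δ z = δ z' from congrArg Subtype.val e]
  · have s0 := (map_ne_zero σ).2 g0
    obtain ⟨h, hh, e2⟩ := C.lam_surj (div_ne_zero d0 g0) (.inr (by
      rw [map_div₀]; field_simp; linear_combination e))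
    have := C.F_lam hh g0
    rw [e2, div_mul_cancel₀ _ g0, map_div₀, inv_div] at this
    rw [this, mul_left_comm, hγ, div_mul_eq_mul_div, div_eq_iff ((map_ne_zero σ).2 d0)] at hδ
    rw [← hδ, mul_comm]

theorem ex_c : ∃ c : E, c ≠ 0 ∧ σ c = c ∧ ∀ γ, γ ≠ 0 → C.F γ * σ γ = c := by
  obtain ⟨t, t0, ht, e, -⟩ := C.blk2 one_ne_zero
  refine ⟨t⁻¹, inv_ne_zero t0, by rw [map_inv₀, ht], fun γ g0 => ?_⟩
  obtain ⟨t', t0', ht', e', -⟩ := C.blk2 g0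
  obtain ⟨h, hh, e1⟩ := C.norm' (div_ne_zero t0 t0') (by rw [map_div₀, ht, ht'])
  have l0 := (map_ne_zero σ).2 (C.lam0 hh)
  rw [eq_div_iff t0'] at e1
  have := C.circ one_ne_zero (mul_ne_zero (C.lam0 hh) g0) e (by
    rw [C.F_lam hh g0, ← e1]; field_simp; linear_combination lam h * e')
  rw [map_mul, map_one] at this
  apply eq_inv_of_mul_eq_one_left
  rw [← e1]
  linear_combination this + lam h * σ (lam h) * σ γ * e'

end Co

end Cfsg.Agent.ON
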