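import Cfsg.Agent.ON.F

/-!
Groups of odd unitary type: the second coordinate.
-/

set_option autoImplicit false
set_option maxHeartbeats 400000
set_option linter.unusedSectionVars false

namespace Cfsg.Agent.ON

open MulAction Subgroup Cfsg.Agent.H4.Basic Cfsg.Agent.H4.Zass Cfsg.Agent.Rk1.Fc

theorem bi_zero {E : Type*} [Field E] {σ : E →+* E} (σσ : ∀ x, σ (σ x) = x) (h2 : (2 : E) ≠ 0)
    {ε : E} (e0 : ε ≠ 0) (e1 : σ ε = -ε) (K : E →+ E →+ E) (h0 : ∀ x y, K x y = -K y x)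
    (h : ∀ x y, x * σ x = y * σ y → K x y = 0) (x y : E) : K x y = 0 := by
  have h1 : ∀ x y, x * σ y + σ x * y = 0 → K x y = 0 := fun x y e => by
    have := h (x + y) (x - y) (by rw [map_add, map_sub]; linear_combination 2 * e)
    simp only [map_add, map_sub, AddMonoidHom.add_apply, h x x rfl, h y y rfl, h0 y x] at this
    exact mul_left_cancel₀ h2 (by linear_combination -this)
  have h3 : ∀ x u, σ u = u → K x (ε ^ 2 * u ^ 2 * x) = 0 := fun x u e => by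
    have := h1 (x + ε * u * x) (ε ^ 2 * u ^ 2 * x + ε * u * x) (by
      simp only [map_add, map_mul, map_pow, e, e1]; ring)
    simp only [map_add, AddMonoidHom.add_apply] at this
    rw [h1 x (ε * u * x), h1 (ε * u * x) (ε ^ 2 * u ^ 2 * x), h _ _ rfl] at this
    · simpa using this
    all_goals simp only [map_mul, map_pow, e, e1]; ring
  by_cases x0 : x = 0
  · simp [x0]
  have s0 := (map_ne_zero σ).2 x0
  have h4 : ∀ t, σ t = t → K x (t * x) = 0 := fun t e => by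
    have : t * x = ε ^ 2 * ((t / ε ^ 2 + 1) / 2) ^ 2 * x - ε ^ 2 * ((t / ε ^ 2 - 1) / 2) ^ 2 * x := by
      field_simp; ring
    rw [this, map_sub, h3, h3, sub_self]
    all_goals simp [e, e1, map_ofNat]
  have : y = (y / x + σ (y / x)) / 2 * x + (y / x - σ (y / x)) / 2 * x := by field_simp; ring
  rw [this, map_add, h4, h1, add_zero]
  · simp only [map_mul, map_div₀, map_sub, σσ, map_ofNat]; ring
  · simp only [map_div₀, map_add, σσ, map_ofNat, add_comm]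

variable {G Ω : Type*} [Group G] [MulAction G Ω]
variable {a b : Ω} {U H : Subgroup G} {p n d m : ℕ} {j s : G}
variable {E : Type*} [Field E] [Fintype E] {σ : E →+* E} {A lam : G → E}
variable [Finite G] [Finite Ω] [FaithfulSMul G Ω] [IsSimpleGroup G]

namespace Co
variable (C : Co a b U H p n d m j s σ A lam) {c : E} (c0 : c ≠ 0) (cσ : σ c = c)
  (hc : ∀ γ, γ ≠ 0 → C.F γ * σ γ = c)
include C

open Classical in
/-- the second coordinate -/
noncomputable def B (x : G) : E :=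
  if A x = 0 then (A (C.f (x * C.v 1)))⁻¹ - (C.F 1)⁻¹ else A x / A (C.f x)

theorem B_of {x : G} (h : A x ≠ 0) : C.B x = A x / A (C.f x) := if_neg h

theorem A_z {z x : G} (hz : z ∈ Zc U j) (hx : x ∈ U) : A (z * x) = A x := by
  rw [C.A_mul hz.1 hx, C.A_Z hz, zero_add]

theorem B_Z {z : G} (hz : z ∈ Zc U j) : C.B z = C.B (z * C.v 1) - C.B (C.v 1) := by
  rw [B, if_pos (C.A_Z hz), C.B_of, C.B_of, C.A_z hz (C.vU 1), C.Av, one_div, one_div, F]
  · simp [C.Av]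
  · simp [C.A_z hz (C.vU 1), C.Av]

theorem B_one : C.B 1 = 0 := by rw [C.B_Z (one_mem _), one_mul, sub_self]

include c0 cσ hc

theorem blk3 {γ δ : E} (g0 : γ ≠ 0) (e : δ * σ δ = γ * σ γ) (ne : δ ≠ γ) :
    A (C.f (C.v (-γ) * C.v δ)) = -C.F γ / 2 := by
  obtain ⟨t, -, -, h1, h2, -⟩ := C.blk2 g0
  have s0 := (map_ne_zero σ).2 g0
  have d0 : δ ≠ 0 := left_ne_zero_of_mul (e ▸ mul_ne_zero g0 s0)
  refine h2 δ d0 (mul_right_cancel₀ ((map_ne_zero σ).2 d0) ?_) ne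
  rw [mul_assoc, hc δ d0, e, ← hc γ g0, ← mul_assoc, h1]

theorem tr0 {x : G} (hx : x ∈ U) (h : A x ≠ 0) : c * (C.B x + σ (C.B x)) = 2 * (A x * σ (A x)) := by
  have h1 := neg_ne_zero.2 (mul_ne_zero C.two0 h)
  have g0 := C.F0 h1
  obtain ⟨t, -, -, h2, -, h3⟩ := C.blk2 g0
  have h4 := C.FF h1
  generalize C.F (-(2 * A x)) = γ at *
  obtain ⟨δ, d0, h5, ne, e⟩ := h3 x hx (by rw [h4, neg_neg, mul_div_cancel_left₀ _ C.two0])
  have h6 := C.circ g0 d0 h2 h5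
  have s0 := sub_ne_zero.2 ne
  have h7 : A (C.f x) = δ - γ := by
    rw [e, C.ff (mul_mem (C.vU _) (C.vU _)) (C.ne1 (by rwa [C.A_vv])), C.A_vv]
  have h8 := hc γ g0
  have h9 := congrArg σ h8
  rw [h4] at h8 h9
  simp only [map_mul, map_neg, map_ofNat, C.σσ, cσ] at h9
  have s1 := (map_ne_zero σ).2 s0
  rw [C.B_of h, h7, map_div₀, div_add_div _ _ s0 s1, ← mul_div_assoc, div_eq_iff (mul_ne_zero s0 s1),
    map_sub]
  linear_combination (-A x * (σ δ - σ γ)) * h9 - ((δ - γ) * σ (A x)) * h8 - 2 * A x * σ (A x) * h6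

theorem shift {z h e x : G} (hz : z ∈ Zc U j) (z1 : z ≠ 1) (hh : h ∈ H) (he : e ∈ Zc U j)
    (E1 : s * z * s = C.f z * h * s * e) (e2 : σ (lam h) = -lam h) (hx : x ∈ U) (h0 : A x ≠ 0) :
    C.B (z * x) = C.B x + (lam h)⁻¹ := by
  have x1 := C.ne1 h0
  have fx := C.fU hx x1
  have a1 := C.A_z hz hx
  have a2 := C.A_z he fx
  have f0 := C.Af hx h0
  have y1 := C.ne1 (a2 ▸ f0)
  have zx := mul_mem hz.1 hx
  have yU := mul_mem he.1 fx
  have h1 : C.f (z * x) = C.f z * (h * C.f (e * C.f x) * h⁻¹) :=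
    C.inj (C.fU zx (C.ne1 (a1 ▸ h0))) (mul_mem (C.fZ hz z1).1 (C.HU hh (C.fU yU y1))) (by
      rw [← C.fb zx (C.ne1 (a1 ▸ h0)), mul_smul (C.f z), C.cb hh, ← C.fb yU y1, mul_smul e,
        ← C.fb hx x1, ← mul_smul s e, ← mul_smul h, ← mul_smul (C.f z), ← mul_assoc, ← mul_assoc, ← E1,
        mul_smul, mul_smul, mul_smul, C.sss])
  have h2 := congrArg A h1
  rw [C.A_z (C.fZ hz z1) (C.HU hh (C.fU yU y1)), C.A_conj hh (C.fU yU y1)] at h2
  have t1 := C.tr0 c0 cσ hc hx h0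
  have t2 := C.tr0 c0 cσ hc zx (a1 ▸ h0)
  have t3 := C.tr0 c0 cσ hc yU (a2 ▸ f0)
  have l0 := C.lam0 hh
  have f1 := C.Af yU (a2 ▸ f0)
  have h3 : C.B (e * C.f x) * C.B x = lam h * C.B (z * x) := by
    rw [C.B_of h0, C.B_of (x := z * x) (a1 ▸ h0), C.B_of (x := e * _) (a2 ▸ f0), a1, a2, h2]
    field_simp
  have h4 : A (C.f x) * C.B x = A x := by rw [C.B_of h0]; field_simp
  have h5 := congrArg σ h3
  have h6 := congrArg σ h4
  rw [map_mul, map_mul, e2] at h5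
  rw [map_mul] at h6
  rw [a1] at t2
  rw [a2] at t3
  have S0 := mul_ne_zero C.two0 (mul_ne_zero h0 ((map_ne_zero σ).2 h0))
  rw [← sub_eq_iff_eq_add']
  apply eq_inv_of_mul_eq_one_right
  apply mul_left_cancel₀ S0
  linear_combination C.B x * σ (C.B x) * t3 - c * σ (C.B x) * h3 - c * C.B x * h5 +
    2 * σ (A (C.f x)) * σ (C.B x) * h4 + 2 * A x * h6 - lam h * C.B (z * x) * t1 + lam h * C.B x * t2

theorem B_z' {z x : G} (hz : z ∈ Zc U j) (hx : x ∈ U) (h0 : A x ≠ 0) : C.B (z * x) = C.B z + C.B x := by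
  by_cases z1 : z = 1
  · simp [z1, C.B_one]
  obtain ⟨h, hh, e, he, E1, e2⟩ := C.tr_Z hz z1
  rw [C.B_Z hz, C.shift c0 cσ hc hz z1 hh he E1 e2 hx h0,
    C.shift c0 cσ hc hz z1 hh he E1 e2 (C.vU 1) (by simp [C.Av])]
  ring

theorem B_z {z x : G} (hz : z ∈ Zc U j) (hx : x ∈ U) : C.B (z * x) = C.B z + C.B x := by
  by_cases h0 : A x = 0
  · have hx' := (C.A_zero hx).1 h0
    rw [C.B_Z (mul_mem hz hx'), mul_assoc, C.B_z' c0 cσ hc hz (mul_mem hx (C.vU 1))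
      (by simp [C.A_z hx' (C.vU 1), C.Av]), C.B_Z hx']
    ring
  · exact C.B_z' c0 cσ hc hz hx h0

theorem B_tr {x : G} (hx : x ∈ U) : c * (C.B x + σ (C.B x)) = 2 * (A x * σ (A x)) := by
  by_cases h0 : A x = 0
  · have hx' := (C.A_zero hx).1 h0
    have h1 := C.tr0 c0 cσ hc (mul_mem hx (C.vU 1)) (by simp [C.A_z hx' (C.vU 1), C.Av])
    have h2 := C.tr0 c0 cσ hc (C.vU 1) (by simp [C.Av])
    rw [C.A_z hx' (C.vU 1)] at h1
    rw [C.B_Z hx', map_sub, h0]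
    linear_combination h1 - h2
  · exact C.tr0 c0 cσ hc hx h0

theorem B_lam {z h e : G} (hz : z ∈ Zc U j) (z1 : z ≠ 1) (hh : h ∈ H) (he : e ∈ U)
    (E1 : s * z * s = C.f z * h * s * e) : C.B z = (lam h)⁻¹ := by
  obtain ⟨h', hh', e', he', E2, e2⟩ := C.tr_Z hz z1
  obtain ⟨-, rfl, -⟩ := C.tr_uniq (C.fU hz.1 z1) hh he (C.fU hz.1 z1) hh' he'.1 (E1.symm.trans E2)
  rw [C.B_Z hz, C.shift c0 cσ hc hz z1 hh he' E2 e2 (C.vU 1) (by simp [C.Av]), add_sub_cancel_left]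

theorem B_f {x : G} (hx : x ∈ U) (h1 : x ≠ 1) :
    C.B x ≠ 0 ∧ A (C.f x) = A x / C.B x ∧ C.B (C.f x) = (C.B x)⁻¹ := by
  by_cases h0 : A x = 0
  · have hz := (C.A_zero hx).1 h0
    obtain ⟨h, hh, e, he, E1⟩ := C.ex_tr hx h1
    rw [C.B_lam c0 cσ hc hz h1 hh he E1, C.B_lam c0 cσ hc (C.fZ hz h1) (C.f1 hx h1) (inv_mem hh)
      (C.HU (C.sH hh) (inv_mem he)) (by
        rw [C.ff hx h1]
        calc _ = s * (C.f x * h * s * e) * s * s * e⁻¹ * s * h⁻¹ * s := by simp [mul_assoc, C.ss, C.s2]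
          _ = _ := by rw [← E1]; simp [mul_assoc, C.ss, C.si]), C.lam_inv hh, h0, C.A_Z (C.fZ hz h1)]
    exact ⟨inv_ne_zero (C.lam0 hh), by simp, rfl⟩
  · have := C.Af hx h0
    rw [C.B_of h0, C.B_of this, C.ff hx h1]
    exact ⟨div_ne_zero h0 this, by field_simp, by simp⟩

theorem B_conj {h x : G} (hh : h ∈ H) (hx : x ∈ U) :
    C.B (h * x * h⁻¹) = lam h * σ (lam h) * C.B x := by
  have key : ∀ x ∈ U, A x ≠ 0 → C.B (h * x * h⁻¹) = lam h * σ (lam h) * C.B x := fun x hx h0 => by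
    rw [C.B_of h0, C.B_of (C.A_conj hh hx ▸ mul_ne_zero (C.lam0 hh) h0), C.A_conj hh hx,
      C.Af_conj hh hx (C.ne1 h0)]
    field_simp
  by_cases h0 : A x = 0
  · have hz := (C.A_zero hx).1 h0
    have h1 := C.B_z c0 cσ hc (C.ivZ C.jH h hh x hz) (C.HU hh (C.vU 1))
    rw [show h * x * h⁻¹ * (h * C.v 1 * h⁻¹) = h * (x * C.v 1) * h⁻¹ by group,
      key _ (mul_mem hx (C.vU 1)) (by simp [C.A_z hz (C.vU 1), C.Av]), key _ (C.vU 1) (by simp [C.Av])]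
      at h1
    rw [C.B_Z hz]
    linear_combination -h1
  · exact key x hx h0

theorem B_v (x : E) : c * C.B (C.v x) = x * σ x := by
  by_cases h0 : x = 0
  · rw [h0, ← C.A_Z (one_mem _), ← C.eq_v (one_mem _) (by simp [C.j2]), C.B_one, C.A_Z (one_mem _)]
    simp
  · rw [C.B_of (by rwa [C.Av]), C.Av, ← hc x h0, F]
    have : A (C.f (C.v x)) ≠ 0 := C.F0 h0
    field_simp

theorem B_cm {x y : G} (hx : x ∈ U) (hy : y ∈ U) :
    C.B (x * y * x⁻¹ * y⁻¹) = C.B (x * y) - C.B (y * x) := by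
  rw [eq_sub_iff_add_eq, ← C.B_z c0 cσ hc (C.commU hx hy) (mul_mem hy hx)]
  congr 1; group

theorem B_vv (x y : E) : c * (C.B (C.v x * C.v y) + C.B (C.v y * C.v x)) = 2 * ((x + y) * σ (x + y)) := by
  have h1 := C.A_eq (mul_mem (C.vU x) (C.vU y)) (C.vU (x + y))
    (by rw [C.A_mul (C.vU x) (C.vU y), C.Av, C.Av, C.Av])
  have h2 : C.v y * C.v x = (C.v x * C.v y * (C.v (x + y))⁻¹)⁻¹ * C.v (x + y) := by
    rw [C.central (inv_mem h1) (C.vU _), ← inv_inj]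
    calc _ = j * C.v x * j * (j * C.v y * j) := by rw [C.jv, C.jv, mul_inv_rev]
      _ = j * (C.v x * C.v y * (C.v (x + y))⁻¹) * (C.v (x + y) * j) := by simp [mul_assoc, C.jj]
      _ = _ := by rw [← (mem_Zc.1 h1).2, mul_inv_rev, inv_inv, ← C.jv]; group
  have h3 := C.B_z c0 cσ hc h1 (C.vU (x + y))
  have h4 := C.B_z c0 cσ hc h1 (inv_mem h1.1)
  rw [inv_mul_cancel_right] at h3
  rw [mul_inv_cancel, C.B_one] at h4
  rw [h2, h3, C.B_z c0 cσ hc (inv_mem h1) (C.vU _), ← C.B_v c0 cσ hc]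
  linear_combination -c * h4

theorem cm_add {x x' y : G} (hx : x ∈ U) (hx' : x' ∈ U) (hy : y ∈ U) {w : G} (hw : w ∈ U)
    (e : A w = A x + A x') : C.B (w * y * w⁻¹ * y⁻¹) =
      C.B (x * y * x⁻¹ * y⁻¹) + C.B (x' * y * x'⁻¹ * y⁻¹) := by
  have h1 := C.A_eq hw (mul_mem hx hx') (by rw [e, C.A_mul hx hx'])
  rw [← C.B_z c0 cσ hc (C.commU hx hy) (C.commU hx' hy).1, ← C.central (C.commU hx' hy) (C.commU hx hy).1]
  congr 1
  calc _ = w * (x * x')⁻¹ * (x * x' * y * (x * x')⁻¹) * (w * (x * x')⁻¹)⁻¹ * y⁻¹ := by group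
    _ = x * (x' * y * x'⁻¹ * y⁻¹) * y * x⁻¹ * y⁻¹ := by
      rw [C.central h1 (mul_mem (mul_mem (mul_mem hx hx') hy) (inv_mem (mul_mem hx hx')))]; group
    _ = _ := by rw [← C.central (C.commU hx' hy) hx]; group

theorem cm_v (x y : E) : c * (C.B (C.v x * C.v y) - C.B (C.v y * C.v x)) = 2 * (σ x * y - x * σ y) := by
  obtain ⟨ε, e0, e1⟩ := C.ex_eps
  have h1 : ∀ x x' y, C.B (C.v (x + x') * C.v y) - C.B (C.v y * C.v (x + x')) =
      C.B (C.v x * C.v y) - C.B (C.v y * C.v x) + (C.B (C.v x' * C.v y) - C.B (C.v y * C.v x')) :=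
    fun x x' y => by
      simp only [← C.B_cm c0 cσ hc (C.vU _) (C.vU _)]
      exact C.cm_add c0 cσ hc (C.vU _) (C.vU _) (C.vU _) (C.vU _) (by simp [C.Av])
  refine sub_eq_zero.1 (bi_zero C.σσ C.two0 e0 e1 (AddMonoidHom.mk' (fun x => AddMonoidHom.mk'
    (fun y => c * (C.B (C.v x * C.v y) - C.B (C.v y * C.v x)) - 2 * (σ x * y - x * σ y))
    fun y y' => by rw [map_add]; linear_combination -c * h1 y y' x) fun x x' => AddMonoidHom.ext
      fun y => by simp only [AddMonoidHom.mk'_apply, AddMonoidHom.add_apply, map_add, h1]; ring)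
    (fun x y => by simp only [AddMonoidHom.mk'_apply]; ring) (fun x y e => ?_) x y)
  simp only [AddMonoidHom.mk'_apply]
  by_cases h0 : x = 0
  · obtain rfl : y = 0 := by simpa [h0] using e
    simp [h0]
  by_cases h2 : y = -x
  · rw [h2, ← C.v_inv]; simp [mul_comm]
  have h3 := C.blk3 c0 cσ hc (neg_ne_zero.2 h0) (δ := y) (by simp [e]) h2
  have h4 := C.A_vv (-x) y
  have h5 := C.B_of (x := C.v (- -x) * C.v y) (h4 ▸ sub_ne_zero.2 h2)
  have h6 := C.B_vv c0 cσ hc x y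
  have h7 := hc x h0
  have h8 := C.F0 h0
  rw [h3, h4, C.F_neg h0, neg_neg, neg_neg, eq_div_iff (div_ne_zero h8 C.two0), mul_div_assoc',
    div_eq_iff C.two0] at h5
  rw [map_add] at h6
  linear_combination 2 * σ x * h5 - h6 - 2 * C.B (C.v x * C.v y) * h7 + 2 * e

theorem B_mul {x y : G} (hx : x ∈ U) (hy : y ∈ U) :
    c * C.B (x * y) = c * C.B x + c * C.B y + 2 * (σ (A x) * A y) := by
  have h1 := C.A_eq hx (C.vU _) (C.Av _).symm
  have h2 := C.A_eq hy (C.vU _) (C.Av _).symm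
  have h3 := C.B_z c0 cσ hc h1 (C.vU (A x))
  have h4 := C.B_z c0 cσ hc h2 (C.vU (A y))
  have h5 := C.B_z c0 cσ hc (mul_mem h1 h2) (mul_mem (C.vU (A x)) (C.vU (A y)))
  rw [inv_mul_cancel_right] at h3 h4
  rw [C.B_z c0 cσ hc h1 h2.1, mul_assoc, ← mul_assoc (y * _), C.central h2 (C.vU _), mul_assoc _ (y * _),
    inv_mul_cancel_right, ← mul_assoc, inv_mul_cancel_right] at h5
  have h6 := C.B_vv c0 cσ hc (A x) (A y)
  have h7 := C.cm_v c0 cσ hc (A x) (A y)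
  rw [map_add] at h6
  apply mul_left_cancel₀ C.two0
  linear_combination 2 * c * h5 - 2 * c * h3 - 2 * c * h4 + h6 + h7 - 2 * C.B_v c0 cσ hc (A x) -
    2 * C.B_v c0 cσ hc (A y)

theorem AB_inj {x y : G} (hx : x ∈ U) (hy : y ∈ U) (e : A x = A y) (e' : C.B x = C.B y) : x = y := by
  have h1 := C.A_eq hx hy e
  have h2 := C.B_z c0 cσ hc h1 hy
  rw [inv_mul_cancel_right, e', right_eq_add] at h2
  exact mul_inv_eq_one.1 (by_contra fun ne => (C.B_f c0 cσ hc h1.1 ne).1 h2)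

theorem AB_surj {ξ y : E} (h : c * (y + σ y) = 2 * (ξ * σ ξ)) : ∃ x ∈ U, A x = ξ ∧ C.B x = y := by
  have h1 := C.B_tr c0 cσ hc (C.vU ξ)
  rw [C.Av, ← h, mul_right_inj' c0] at h1
  by_cases e : C.B (C.v ξ) = y
  · exact ⟨_, C.vU ξ, C.Av ξ, e⟩
  obtain ⟨z, hz, z1⟩ := C.exZ
  have h2 := C.B_tr c0 cσ hc hz.1
  have h3 := (C.B_f c0 cσ hc hz.1 z1).1
  rw [C.A_Z hz, zero_mul, mul_zero, mul_eq_zero, or_iff_right c0] at h2
  obtain ⟨k, hk, h4⟩ := C.norm' (div_ne_zero (sub_ne_zero.2 (Ne.symm e)) h3) (by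
    rw [map_div₀, div_eq_div_iff ((map_ne_zero σ).2 h3) h3, map_sub]
    linear_combination -C.B z * h1 - (y - C.B (C.v ξ)) * h2)
  have h5 := C.ivZ C.jH k hk z hz
  exact ⟨_, mul_mem h5.1 (C.vU ξ), by rw [C.A_z h5 (C.vU ξ), C.Av], by
    rw [C.B_z c0 cσ hc h5 (C.vU ξ), C.B_conj c0 cσ hc hk hz.1, h4, div_mul_cancel₀ _ h3,
      sub_add_cancel]⟩

end Co

end Cfsg.Agent.ON
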