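import Cfsg.Agent.H4.Zass
import Cfsg.Prelude.Def_Classical

/-!
Groups of odd unitary type: identification with the unitary group from coordinates.
-/

set_option autoImplicit false
set_option maxHeartbeats 400000
set_option linter.unusedSectionVars false

namespace Cfsg.Agent.ON

open MulAction Cfsg.Agent.H4.Zass Function Matrix
open scoped MatrixGroups

variable {G Ω : Type*} [Group G] [MulAction G Ω] {a b : Ω} {U : Subgroup G} {s : G}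
  {E : Type*} [Field E] {σ : E →+* E} {A B : G → E}

theorem hom_of_rel [FaithfulSMul G Ω] {S Ω' : Type*} [Group S] (act : S → Ω' → Ω')
    (hm : ∀ A B v, act (A * B) v = act A (act B v)) (R : Ω → Ω' → Prop) (tot : ∀ ω, ∃ v, R ω v)
    (uniq : ∀ ω ω' v, R ω v → R ω' v → ω = ω')
    (h : ∀ A : S, ∃ g : G, ∀ ω v, R ω v → R (g • ω) (act A v)) :
    ∃ φ : S →* G, ∀ A g, φ A = g ↔ ∀ ω v, R ω v → R (g • ω) (act A v) := by
  choose φ hφ using h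
  have : ∀ A g, (∀ ω v, R ω v → R (g • ω) (act A v)) → φ A = g := fun A g h =>
    eq_of_smul_eq_smul (α := Ω) fun ω => (tot ω).elim fun v hv => uniq _ _ _ (hφ A ω v hv) (h ω v hv)
  exact ⟨MonoidHom.mk' φ fun A B => this _ _ fun ω v hv => by
    rw [hm, mul_smul]; exact hφ _ _ _ (hφ _ _ _ hv), fun A g => ⟨fun e => e ▸ hφ A, this A g⟩⟩

theorem mem_SU_iff {q : ℕ} (hq : ∀ x, σ x = x ^ q) {n : ℕ} (M : SL(n, E)) :
    M ∈ SU n E q ↔ M.1ᵀ * M.1.map σ = 1 := by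
  have key : ∀ u v, hermForm n E q (M.1 *ᵥ u) (M.1 *ᵥ v) = u ⬝ᵥ (M.1ᵀ * M.1.map σ) *ᵥ (σ ∘ v) :=
    fun u v => by
      have h2 : σ ∘ (M.1 *ᵥ v) = M.1.map σ *ᵥ (σ ∘ v) := funext fun i => RingHom.map_mulVec _ _ _ i
      rw [dotProduct_mulVec, ← vecMul_mulVec, ← dotProduct_mulVec, ← h2]
      simp only [hermForm, ← hq]
      rfl
  refine ⟨fun h => Matrix.ext fun i j => ?_, fun h u v => ?_⟩
  · have := (key (Pi.single i 1) (Pi.single j 1)).symm.trans (h _ _)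
    have e : σ ∘ (Pi.single j 1 : Fin n → E) = Pi.single j 1 := by
      ext k; by_cases e : k = j <;> simp [e]
    simpa [e, hermForm, ← hq, Pi.single_apply, one_apply, eq_comm] using this
  · refine (key u v).trans ?_
    simp only [h, one_mulVec, hermForm, ← hq]
    rfl

/-- The Weyl element. -/
def JJ : Matrix (Fin 3) (Fin 3) E := !![0, 0, -1; 0, -1, 0; -1, 0, 0]
/-- The form. -/
def JK : Matrix (Fin 3) (Fin 3) E := !![0, 0, -1; 0, 1, 0; -1, 0, 0]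

theorem mv (a b c d e f g h i x y z : E) : !![a, b, c; d, e, f; g, h, i] *ᵥ ![x, y, z] =
    ![a * x + b * y + c * z, d * x + e * y + f * z, g * x + h * y + i * z] := by
  ext j; fin_cases j <;> simp [mulVec, dotProduct, Fin.sum_univ_three]

theorem JJ_JJ : (JJ * JJ : Matrix _ _ E) = 1 := by simp [JJ, one_fin_three]

variable (σ) in
/-- The unipotent matrices. -/
def mm (ξ y : E) : Matrix (Fin 3) (Fin 3) E := !![1, σ ξ, y; 0, 1, ξ; 0, 0, 1]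
variable (σ) in
/-- The diagonal matrices. -/
def dd (y : E) : Matrix (Fin 3) (Fin 3) E := !![(σ y)⁻¹, 0, 0; 0, σ y / y, 0; 0, 0, y]
variable (σ) in
/-- Unitary matrices of determinant one. -/
def Un (M : Matrix (Fin 3) (Fin 3) E) : Prop := Mᵀ * JK * M.map σ = JK ∧ M.det = 1

theorem Un.mul {M N : Matrix (Fin 3) (Fin 3) E} (h : Un σ M) (h' : Un σ N) : Un σ (M * N) :=
  ⟨by rw [transpose_mul, Matrix.map_mul, Matrix.mul_assoc Nᵀ, Matrix.mul_assoc Nᵀ,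
    ← Matrix.mul_assoc (Mᵀ * JK), h.1, ← Matrix.mul_assoc, h'.1], by simp [h.2, h'.2]⟩

theorem un_J : Un σ JJ := ⟨by
  ext i j; fin_cases i <;> fin_cases j <;> simp [JJ, JK, mul_apply, Fin.sum_univ_three],
  by simp [JJ, det_fin_three]⟩

theorem un_m (σσ : ∀ x, σ (σ x) = x) {ξ y : E} (h : y + σ y = ξ * σ ξ) : Un σ (mm σ ξ y) := ⟨by
  ext i j; fin_cases i <;> fin_cases j <;> simp [JK, mm, mul_apply, Fin.sum_univ_three, σσ]
  grind, by simp [mm, det_fin_three]⟩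

theorem m_m {ξ y : E} (h : y + σ y = ξ * σ ξ) : mm σ ξ y * mm σ (-ξ) (σ y) = 1 := by
  simp [mm, one_fin_three]; grind

/-- Complete coordinates. -/
structure Fi (a b : Ω) (U : Subgroup G) (s : G) (σ : E →+* E) (A B : G → E) : Prop where
  ker : IsKer a U
  ab : a ≠ b
  sa : s • a = b
  sb : s • b = a
  σσ : ∀ x, σ (σ x) = x
  two : (2 : E) ≠ 0
  eps : ∃ ε : E, ε ≠ 0 ∧ σ ε = -ε
  nm : ∀ t, σ t = t → ∃ ξ, ξ * σ ξ = t
  A1 : A 1 = 0
  B1 : B 1 = 0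
  A_mul : ∀ {u v}, u ∈ U → v ∈ U → A (u * v) = A u + A v
  B_mul : ∀ {u v}, u ∈ U → v ∈ U → B (u * v) = B u + B v + σ (A u) * A v
  tr : ∀ {u}, u ∈ U → B u + σ (B u) = A u * σ (A u)
  inj : ∀ {u v}, u ∈ U → v ∈ U → A u = A v → B u = B v → u = v
  surj : ∀ {ξ y}, y + σ y = ξ * σ ξ → ∃ u ∈ U, A u = ξ ∧ B u = y
  act : ∀ {u}, u ∈ U → u ≠ 1 → B u ≠ 0 ∧ ∃ v ∈ U, s • u • b = v • b ∧ A v = A u / B u ∧ B v = (B u)⁻¹
  gen : ∀ K : Subgroup G, U ≤ K → s ∈ K → K = ⊤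

namespace Fi
variable (z : Fi a b U s σ A B)

/-- Points and isotropic vectors. -/
def R (_ : Fi a b U s σ A B) (ω : Ω) (v : Fin 3 → E) : Prop := ∃ l ≠ 0, (ω = a ∧ v = ![l, 0, 0]) ∨
  ∃ u ∈ U, ω = u • b ∧ v = ![l * B u, l * A u, l]

/-- Elements and matrices. -/
def Rel (g : G) (M : Matrix (Fin 3) (Fin 3) E) : Prop := ∀ ω v, z.R ω v → z.R (g • ω) (M *ᵥ v)

variable {z} in
theorem Rel.mul {g g' : G} {M M' : Matrix (Fin 3) (Fin 3) E} (h : z.Rel g M) (h' : z.Rel g' M') :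
    z.Rel (g * g') (M * M') := fun _ _ h1 => by
  simpa only [mul_smul, mulVec_mulVec] using h _ _ (h' _ _ h1)

theorem rel_s : z.Rel s JJ := by
  rintro _ _ ⟨l, hl, ⟨rfl, rfl⟩ | ⟨u, hu, rfl, rfl⟩⟩
  · exact ⟨-l, neg_ne_zero.2 hl, .inr ⟨1, one_mem _, by simp [z.sa], by
      simp [JJ, mv, z.A1, z.B1, -mulVec_cons]⟩⟩
  by_cases h0 : u = 1
  · exact ⟨-l, neg_ne_zero.2 hl, .inl (by simp [h0, z.sb, z.A1, z.B1, JJ, mv, -mulVec_cons])⟩
  obtain ⟨h1, v, hv, h2, h3, h4⟩ := z.act hu h0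
  exact ⟨-(l * B u), neg_ne_zero.2 (mul_ne_zero hl h1), .inr ⟨v, hv, h2, by
    simp [JJ, mv, h3, h4, -mulVec_cons]; grind⟩⟩

theorem rel_U {u : G} (hu : u ∈ U) : z.Rel u (mm σ (A u) (B u)) := by
  rintro _ _ ⟨l, hl, ⟨rfl, rfl⟩ | ⟨v, hv, rfl, rfl⟩⟩
  · exact ⟨l, hl, .inl ⟨z.ker.fix u hu, by simp [mm, mv, -mulVec_cons]⟩⟩
  · exact ⟨l, hl, .inr ⟨u * v, mul_mem hu hv, (mul_smul _ _ _).symm, by
      simp [mm, mv, z.A_mul hu hv, z.B_mul hu hv, -mulVec_cons]; grind⟩⟩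

/-- Matrices realised by the group. -/
def Ex (M : Matrix (Fin 3) (Fin 3) E) : Prop := ∃ g, z.Rel g M

variable {z} in
theorem Ex.mul {M M' : Matrix (Fin 3) (Fin 3) E} (h : z.Ex M) (h' : z.Ex M') : z.Ex (M * M') :=
  h.elim fun _ h => h'.elim fun _ h' => ⟨_, h.mul h'⟩

variable {z} in
theorem Ex.eq {M M' : Matrix (Fin 3) (Fin 3) E} (h : z.Ex M) (h' : M = M') : z.Ex M' := h' ▸ h

theorem ex_J : z.Ex JJ := ⟨_, z.rel_s⟩

theorem ex_m {ξ y : E} (h : y + σ y = ξ * σ ξ) : z.Ex (mm σ ξ y) := by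
  obtain ⟨u, hu, rfl, rfl⟩ := z.surj h
  exact ⟨u, z.rel_U hu⟩

theorem ex_dd {y : E} (h0 : y ≠ 0) : z.Ex (dd σ y) := by
  obtain ⟨ξ, h⟩ := z.nm (-y + σ (-y)) (by rw [map_add, z.σσ, add_comm])
  have := (map_ne_zero σ).2 h0
  have h' := h
  rw [map_neg] at h'
  refine ((((((z.ex_m (ξ := ξ / y) (y := -(σ y)⁻¹) ?_).mul z.ex_J).mul (z.ex_m h.symm)).mul
    z.ex_J).mul (z.ex_m (ξ := ξ / σ y) (y := -(σ y)⁻¹) ?_)).mul z.ex_J).eq ?_
  all_goals simp [JJ, mm, dd, z.σσ]; grind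

theorem ex_un {M : Matrix (Fin 3) (Fin 3) E} (h : Un σ M) : z.Ex M := by
  have key : ∀ {M}, Un σ M → M 1 0 = 0 → M 2 0 = 0 → z.Ex M := fun {M} h h1 h2 => by
    have h3 := congrFun₂ h.1 0 1
    have h4 := congrFun₂ h.1 0 2
    have h5 := congrFun₂ h.1 1 2
    have h6 := congrFun₂ h.1 2 2
    have h7 := h.2
    simp [JK, mul_apply, Fin.sum_univ_three, det_fin_three, h1, h2] at h3 h4 h5 h6 h7
    have h8 := right_ne_zero_of_mul_eq_one h4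
    have h9 := (map_ne_zero σ).1 h8
    refine ((z.ex_m (ξ := M 1 2 / M 2 2) (y := M 0 2 / M 2 2) ?_).mul (z.ex_dd h9)).eq ?_
    · simp only [map_div₀]; grind
    · ext i j; fin_cases i <;> fin_cases j <;> simp [mm, dd, mul_apply, Fin.sum_univ_three] <;> grind
  have h1 := congrFun₂ h.1 0 0
  simp [JK, mul_apply, Fin.sum_univ_three] at h1
  by_cases h0 : M 2 0 = 0
  · exact key h (by simpa [h0] using h1) h0
  have := (map_ne_zero σ).2 h0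
  have h2 : M 0 0 / M 2 0 + σ (M 0 0 / M 2 0) = M 1 0 / M 2 0 * σ (M 1 0 / M 2 0) := by
    simp only [map_div₀]; grind
  have hg := key ((un_J.mul (un_m z.σσ (ξ := -(M 1 0 / M 2 0)) (y := σ (M 0 0 / M 2 0)) (by
    rw [z.σσ, add_comm, h2]; simp))).mul h)
    (by simp [JJ, mm, mul_apply, Fin.sum_univ_three]; grind)
    (by simp [JJ, mm, mul_apply, Fin.sum_univ_three]; grind)
  refine (((z.ex_m h2).mul z.ex_J).mul hg).eq ?_
  rw [Matrix.mul_assoc, ← Matrix.mul_assoc JJ, ← Matrix.mul_assoc JJ, JJ_JJ, Matrix.one_mul,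
    ← Matrix.mul_assoc, m_m h2, Matrix.one_mul]

theorem rel_one {M : Matrix (Fin 3) (Fin 3) E} (h : z.Rel 1 M) : ∃ l : E, M = scalar _ l := by
  have key : ∀ ξ y, y + σ y = ξ * σ ξ → ∃ l, M *ᵥ ![y, ξ, 1] = ![l * y, l * ξ, l] := fun ξ y h1 => by
    obtain ⟨u, hu, rfl, rfl⟩ := z.surj h1
    obtain ⟨l, -, ⟨h2, -⟩ | ⟨v, hv, h2, h3⟩⟩ := h _ _ ⟨1, one_ne_zero, .inr ⟨u, hu, rfl, rfl⟩⟩
    · exact absurd ((one_smul G _).symm.trans h2) (z.ker.ne hu z.ab.symm)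
    · obtain rfl := z.ker.eq_of_smul_eq hu hv z.ab.symm ((one_smul G _).symm.trans h2)
      exact ⟨l, by simpa using h3⟩
  obtain ⟨ε, e0, e1⟩ := z.eps
  have := z.two
  obtain ⟨l, -, ⟨-, h0⟩ | ⟨u, hu, h1, -⟩⟩ := h _ _ ⟨1, one_ne_zero, .inl ⟨rfl, rfl⟩⟩
  swap
  · exact absurd (h1.symm.trans (one_smul G _)) (z.ker.ne hu z.ab.symm)
  obtain ⟨_, h1⟩ := key 0 0 (by simp)
  obtain ⟨_, h2⟩ := key 0 ε (by simp [e1])
  obtain ⟨_, h3⟩ := key 1 2⁻¹ (by simp [map_ofNat]; grind)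
  obtain ⟨_, h4⟩ := key 1 (2⁻¹ + ε) (by simp [map_ofNat, e1]; grind)
  simp [funext_iff, Fin.forall_fin_succ, mulVec, dotProduct, Fin.sum_univ_three] at h0 h1 h2 h3 h4
  exact ⟨l, by ext i j; fin_cases i <;> fin_cases j <;> simp <;> grind⟩

include z in
theorem psu [FaithfulSMul G Ω] {q : ℕ} (hσ : ∀ x, σ x = x ^ q) : Nonempty (G ≃* PSU 3 E q) := by
  obtain ⟨P, P', h1, h2⟩ : ∃ P P' : Matrix (Fin 3) (Fin 3) E, P * P' = 1 ∧ Pᵀ * P.map σ = JK := by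
    obtain ⟨i, hi⟩ := z.nm (-1) (by simp)
    have := z.two
    exact ⟨!![1, 0, -2⁻¹; i, 0, i / 2; 0, 1, 0], !![2⁻¹, -σ i / 2, 0; 0, 0, 1; -1, -σ i, 0], by
      simp [one_fin_three]; grind, by
      ext i j; fin_cases i <;> fin_cases j <;> simp [JK, mul_apply, Fin.sum_univ_three, map_ofNat] <;>
        grind⟩
  have h3 := mul_eq_one_comm.1 h1
  have h4 : P'ᵀ * (JK * P'.map σ) = 1 := by
    rw [← h2, Matrix.mul_assoc, ← Matrix.map_mul, h1, ← Matrix.mul_assoc, ← transpose_mul, h1]; simp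
  have h5 : P.det * P'.det = 1 := by rw [← det_mul, h1, det_one]
  have mem := mem_SU_iff hσ (n := 3)
  have pt : ∀ ω, ω = a ∨ ∃ u ∈ U, u • b = ω := fun ω =>
    or_iff_not_imp_left.2 fun h => z.ker.exists_smul z.ab.symm h
  obtain ⟨φ, hφ⟩ := hom_of_rel (G := G) (S := SU 3 E q) (fun M v => (P' * M.1.1 * P) *ᵥ v)
    (fun M N v => by
      rw [mulVec_mulVec, Matrix.mul_assoc _ P, ← Matrix.mul_assoc P, ← Matrix.mul_assoc P, h1]
      simp [Matrix.mul_assoc]) z.R (fun ω => by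
    rcases pt ω with h | ⟨u, hu, rfl⟩
    · exact ⟨_, 1, one_ne_zero, .inl ⟨h, rfl⟩⟩
    · exact ⟨_, 1, one_ne_zero, .inr ⟨u, hu, rfl, rfl⟩⟩) (by
    rintro _ _ _ ⟨l, hl, ⟨rfl, rfl⟩ | ⟨u, hu, rfl, rfl⟩⟩ ⟨l', hl', ⟨rfl, h⟩ | ⟨v, hv, rfl, h⟩⟩
    · rfl
    · simp [hl'.symm] at h
    · simp [hl] at h
    · simp at h
      rw [z.inj hu hv (by grind) (by grind)]) fun M => z.ex_un ⟨by
      have := (mem M).1 M.2
      simp only [transpose_mul, Matrix.map_mul, Matrix.mul_assoc]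
      rw [← Matrix.mul_assoc JK, ← Matrix.mul_assoc P'ᵀ, h4, Matrix.one_mul, ← Matrix.mul_assoc M.1.1ᵀ,
        this, Matrix.one_mul, h2], by simp [mul_comm, h5]⟩
  have h6 : ∀ {g M}, Un σ M → z.Rel g M → g ∈ φ.range := fun {g M} h h' =>
    ⟨⟨⟨P * M * P', by simp [h.2, h5]⟩, (mem _).2 (by
      simp only [transpose_mul, Matrix.map_mul, Matrix.mul_assoc]
      rw [← Matrix.mul_assoc Pᵀ, h2, ← Matrix.mul_assoc JK, ← Matrix.mul_assoc Mᵀ,
        ← Matrix.mul_assoc Mᵀ, h.1, h4])⟩, (hφ _ _).2 (by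
      simpa only [← Matrix.mul_assoc, h3, Matrix.one_mul, Matrix.mul_assoc M, Matrix.mul_one, Rel]
        using h')⟩
  have h7 : Surjective φ := MonoidHom.range_eq_top.1 (z.gen _
    (fun u hu => h6 (un_m z.σσ (z.tr hu)) (z.rel_U hu)) (h6 un_J z.rel_s))
  refine ⟨((QuotientGroup.quotientMulEquivOfEq (Subgroup.ext fun M => ⟨fun h => ?_, fun h => ?_⟩)).trans
    (QuotientGroup.quotientKerEquivOfSurjective φ h7)).symm⟩
  · have h8 : ∀ g, φ M * g = g * φ M := fun g => by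
      obtain ⟨N, rfl⟩ := h7 g
      rw [← map_mul, ← map_mul, Subgroup.mem_center_iff.1 h N]
    obtain ⟨ε, e0, e1⟩ := z.eps
    obtain ⟨u, hu, -, e⟩ := z.surj (ξ := 0) (y := ε) (by simp [e1])
    have h9 := z.ker.fix_of_commute hu (fun e' => e0 (by rw [← e, e', z.B1])) hu (h8 u).symm
    refine eq_of_smul_eq_smul (α := Ω) fun ω => ?_
    rcases pt ω with rfl | ⟨u, hu, rfl⟩
    · rw [h9, one_smul]
    · rw [← z.sa, ← mul_smul u, ← mul_smul, h8, mul_smul, h9, one_smul]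
  · obtain ⟨l, hl⟩ := z.rel_one ((hφ M 1).1 h)
    have : M.1.1 = scalar _ l := by
      rw [← Matrix.mul_one (scalar _ l), ← h1, ← Matrix.mul_assoc, (scalar_commute l (Commute.all l) P).eq,
        ← hl, ← Matrix.mul_assoc, ← Matrix.mul_assoc, h1, Matrix.mul_assoc, h1]
      simp
    exact Subgroup.mem_center_iff.2 fun N => Subtype.ext (Subtype.ext (show N.1.1 * M.1.1 = M.1.1 * N.1.1 by
      rw [this, (scalar_commute l (Commute.all l) _).eq]))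

end Fi

end Cfsg.Agent.ON
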